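import Mathlib
import Cfsg.Prelude.Def_Local
import Cfsg.Agent.Lib.Helper29.PSolvable2

set_option autoImplicit false

/-!
# API for the upper `p`-series and `Cfsg.PLengthLE`
-/

namespace Cfsg.Agent.Lib.Helper29

open Cfsg Cfsg.Agent.Lib.Helper8

variable {G : Type*} [Group G]

theorem upper_le_succ (p : ℕ) (G : Type*) [Group G] (n : ℕ) :
    (upperPSeries p G n).1 ≤ (upperPSeries p G (n + 1)).1 := by
  intro v hv
  have h1 : QuotientGroup.mk' (upperPSeries p G n).1 v = 1 := (QuotientGroup.eq_one_iff v).mpr hv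
  by_cases hn : Even n
  · rw [upperPSeries_succ_of_even p G hn, Subgroup.mem_comap, h1]; exact Subgroup.one_mem _
  · rw [upperPSeries_succ_of_not_even p G hn, Subgroup.mem_comap, h1]; exact Subgroup.one_mem _

theorem upper_mono (p : ℕ) (G : Type*) [Group G] : Monotone (fun n => (upperPSeries p G n).1) :=
  monotone_nat_of_le_succ (upper_le_succ p G)

theorem relIndex_upper_even [Finite G] (p : ℕ) {n : ℕ} (hn : Even n) :
    ((upperPSeries p G n).1.relIndex (upperPSeries p G (n + 1)).1).Coprime p := by
  rw [upperPSeries_succ_of_even p G hn, ← card_eq_relIndex_comap]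
  exact coprime_card_pPrimeCore p

theorem relIndex_upper_odd [Finite G] (p : ℕ) [Fact p.Prime] {n : ℕ} (hn : ¬ Even n) :
    ∃ m : ℕ, (upperPSeries p G n).1.relIndex (upperPSeries p G (n + 1)).1 = p ^ m := by
  rw [upperPSeries_succ_of_not_even p G hn, ← card_eq_relIndex_comap]
  exact IsPGroup.iff_card.mp (isPGroup_pCore p)

/-- domination of a `p'`-step by the upper series -/
theorem le_upper_succ_even {p : ℕ} {n : ℕ} (hn : Even n) {A B : Subgroup G} (hB : B.Normal)
    (hA : A ≤ (upperPSeries p G n).1) (h : (A.relIndex B).Coprime p) :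
    B ≤ (upperPSeries p G (n + 1)).1 := by
  rw [upperPSeries_succ_of_even p G hn]
  have h1 : B.map (QuotientGroup.mk' (upperPSeries p G n).1) ≤ pPrimeCore p (G ⧸ (upperPSeries p G n).1) := by
    apply le_pPrimeCore_of_normal (hB.map _ (QuotientGroup.mk'_surjective _))
    rw [card_map_mk']
    exact Nat.Coprime.of_dvd_left (Subgroup.relIndex_dvd_of_le_left B hA) h
  intro b hb
  exact h1 ⟨b, hb, rfl⟩

/-- domination of a `p`-step by the upper series -/
theorem le_upper_succ_odd {p : ℕ} [hp : Fact p.Prime] {n : ℕ} (hn : ¬ Even n) {A B : Subgroup G}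
    (hB : B.Normal) (hA : A ≤ (upperPSeries p G n).1) (h : ∃ m : ℕ, A.relIndex B = p ^ m) :
    B ≤ (upperPSeries p G (n + 1)).1 := by
  rw [upperPSeries_succ_of_not_even p G hn]
  have h1 : B.map (QuotientGroup.mk' (upperPSeries p G n).1) ≤ pCore p (G ⧸ (upperPSeries p G n).1) := by
    apply le_pCore_of_normal (hB.map _ (QuotientGroup.mk'_surjective _))
    obtain ⟨m, hm⟩ := h
    have h2 : (upperPSeries p G n).1.relIndex B ∣ p ^ m := hm ▸ Subgroup.relIndex_dvd_of_le_left B hA
    obtain ⟨j, -, hj⟩ := (Nat.dvd_prime_pow hp.out).mp h2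
    apply IsPGroup.of_card (n := j)
    rw [card_map_mk', hj]
  intro b hb
  exact h1 ⟨b, hb, rfl⟩

theorem pPrimeCore_le_upper_one [Finite G] (p : ℕ) : pPrimeCore p G ≤ (upperPSeries p G 1).1 := by
  apply le_upper_succ_even (A := ⊥) (by decide) inferInstance bot_le
  rw [Subgroup.relIndex_bot_left]
  exact coprime_card_pPrimeCore p

theorem pPrimePCore_le_upper_two [Finite G] (p : ℕ) [Fact p.Prime] :
    pPrimePCore p G ≤ (upperPSeries p G 2).1 := by
  apply le_upper_succ_odd (A := pPrimeCore p G) (by decide) inferInstance (pPrimeCore_le_upper_one p)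
  rw [pPrimePCore, ← card_eq_relIndex_comap]
  exact IsPGroup.iff_card.mp (isPGroup_pCore p)

/-- the upper series of a quotient by `L ≤ U_j` (`j` even) pulls back into the shifted upper series -/
theorem comap_upper_quotient_le [Finite G] (p : ℕ) [Fact p.Prime] (L : Subgroup G) [L.Normal] {j : ℕ}
    (hj : Even j) (hL : L ≤ (upperPSeries p G j).1) (n : ℕ) :
    (upperPSeries p (G ⧸ L) n).1.comap (QuotientGroup.mk' L) ≤ (upperPSeries p G (n + j)).1 := by
  induction n with
  | zero =>
    rw [zero_add]
    show (⊥ : Subgroup (G ⧸ L)).comap (QuotientGroup.mk' L) ≤ _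
    rw [MonoidHom.comap_bot, QuotientGroup.ker_mk']
    exact hL
  | succ n ih =>
    have e : ((upperPSeries p (G ⧸ L) n).1.comap (QuotientGroup.mk' L)).relIndex
        ((upperPSeries p (G ⧸ L) (n + 1)).1.comap (QuotientGroup.mk' L)) =
        (upperPSeries p (G ⧸ L) n).1.relIndex (upperPSeries p (G ⧸ L) (n + 1)).1 := by
      rw [Subgroup.relIndex_comap,
        Subgroup.map_comap_eq_self_of_surjective (QuotientGroup.mk'_surjective L)]
    have hnorm : ((upperPSeries p (G ⧸ L) (n + 1)).1.comap (QuotientGroup.mk' L)).Normal :=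
      Subgroup.Normal.comap inferInstance _
    rw [show n + 1 + j = (n + j) + 1 by ring]
    by_cases hn : Even n
    · apply le_upper_succ_even (hn.add hj) hnorm ih
      rw [e]; exact relIndex_upper_even p hn
    · have hnj : ¬ Even (n + j) := by
        rw [Nat.even_add]; tauto
      apply le_upper_succ_odd hnj hnorm ih
      rw [e]; exact relIndex_upper_odd p hn

theorem PLengthLE.of_quotient [Finite G] {p : ℕ} [Fact p.Prime] (L : Subgroup G) [L.Normal] {k c : ℕ}
    (hL : L ≤ (upperPSeries p G (2 * k)).1) (h : PLengthLE p c (G ⧸ L)) : PLengthLE p (c + k) G := by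
  have h1 := comap_upper_quotient_le p L (even_two_mul k) hL (2 * c + 1)
  rw [show (upperPSeries p (G ⧸ L) (2 * c + 1)).1 = ⊤ from h, Subgroup.comap_top] at h1
  show (upperPSeries p G (2 * (c + k) + 1)).1 = ⊤
  rw [show 2 * (c + k) + 1 = 2 * c + 1 + 2 * k by ring]
  exact top_le_iff.mp h1

/-- images of the upper series lie in the upper series of the image -/
theorem map_upper_le [Finite G] (p : ℕ) [Fact p.Prime] {G' : Type*} [Group G'] (f : G →* G')
    (hf : Function.Surjective f) (n : ℕ) :
    (upperPSeries p G n).1.map f ≤ (upperPSeries p G' n).1 := by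
  induction n with
  | zero =>
    show (⊥ : Subgroup G).map f ≤ _
    rw [Subgroup.map_bot]; exact bot_le
  | succ n ih =>
    have hnorm : ((upperPSeries p G (n + 1)).1.map f).Normal :=
      Subgroup.Normal.map inferInstance f hf
    have hd := relIndex_map_dvd f (upper_le_succ p G n)
    by_cases hn : Even n
    · apply le_upper_succ_even hn hnorm ih
      exact Nat.Coprime.of_dvd_left hd (relIndex_upper_even p hn)
    · apply le_upper_succ_odd hn hnorm ih
      obtain ⟨m, hm⟩ := relIndex_upper_odd (G := G) p hn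
      rw [hm] at hd
      obtain ⟨j, -, hj⟩ := (Nat.dvd_prime_pow (Fact.out : p.Prime)).mp hd
      exact ⟨j, hj⟩

theorem PLengthLE.of_surjective [Finite G] {p : ℕ} [Fact p.Prime] {G' : Type*} [Group G'] {k : ℕ}
    (h : PLengthLE p k G) (f : G →* G') (hf : Function.Surjective f) : PLengthLE p k G' := by
  have h1 := map_upper_le p f hf (2 * k + 1)
  rw [show (upperPSeries p G (2 * k + 1)).1 = ⊤ from h, ← MonoidHom.range_eq_map,
    MonoidHom.range_eq_top.mpr hf] at h1
  exact top_le_iff.mp h1

/-- the upper series restricted to a subgroup lies in the upper series of the subgroup -/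
theorem subgroupOf_upper_le [Finite G] (p : ℕ) [Fact p.Prime] (K : Subgroup G) (n : ℕ) :
    (upperPSeries p G n).1.subgroupOf K ≤ (upperPSeries p K n).1 := by
  induction n with
  | zero =>
    show (⊥ : Subgroup G).subgroupOf K ≤ _
    rw [Subgroup.bot_subgroupOf]; exact bot_le
  | succ n ih =>
    have hnorm : ((upperPSeries p G (n + 1)).1.subgroupOf K).Normal := inferInstance
    have hd := relIndex_subgroupOf_dvd K (A := (upperPSeries p G n).1) (B := (upperPSeries p G (n + 1)).1)
    by_cases hn : Even n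
    · apply le_upper_succ_even hn hnorm ih
      exact Nat.Coprime.of_dvd_left hd (relIndex_upper_even p hn)
    · apply le_upper_succ_odd hn hnorm ih
      obtain ⟨m, hm⟩ := relIndex_upper_odd (G := G) p hn
      rw [hm] at hd
      obtain ⟨j, -, hj⟩ := (Nat.dvd_prime_pow (Fact.out : p.Prime)).mp hd
      exact ⟨j, hj⟩

theorem PLengthLE.subgroup [Finite G] {p : ℕ} [Fact p.Prime] {k : ℕ} (h : PLengthLE p k G)
    (K : Subgroup G) : PLengthLE p k K := by
  have h1 := subgroupOf_upper_le p K (2 * k + 1)
  rw [show (upperPSeries p G (2 * k + 1)).1 = ⊤ from h, Subgroup.top_subgroupOf] at h1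
  exact top_le_iff.mp h1

theorem PLengthLE.mono {p : ℕ} {k l : ℕ} (h : PLengthLE p k G) (hkl : k ≤ l) : PLengthLE p l G := by
  have h1 := upper_mono p G (show 2 * k + 1 ≤ 2 * l + 1 by omega)
  simp only at h1
  rw [show (upperPSeries p G (2 * k + 1)).1 = ⊤ from h] at h1
  exact top_le_iff.mp h1

/-- the image of the shifted upper series in `G / U_j`, `j` even, lies in the upper series -/
theorem map_upper_shift_le [Finite G] (p : ℕ) [Fact p.Prime] {j : ℕ} (hj : Even j) (n : ℕ) :
    (upperPSeries p G (n + j)).1.map (QuotientGroup.mk' (upperPSeries p G j).1)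
      ≤ (upperPSeries p (G ⧸ (upperPSeries p G j).1) n).1 := by
  induction n with
  | zero =>
    rw [zero_add, (Subgroup.map_eq_bot_iff _).mpr (by rw [QuotientGroup.ker_mk'])]
    exact bot_le
  | succ n ih =>
    rw [show n + 1 + j = (n + j) + 1 by ring]
    have hnorm : ((upperPSeries p G (n + j + 1)).1.map (QuotientGroup.mk' (upperPSeries p G j).1)).Normal :=
      Subgroup.Normal.map inferInstance _ (QuotientGroup.mk'_surjective _)
    have hd := relIndex_map_dvd (QuotientGroup.mk' (upperPSeries p G j).1) (upper_le_succ p G (n + j))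
    by_cases hn : Even n
    · apply le_upper_succ_even hn hnorm ih
      exact Nat.Coprime.of_dvd_left hd (relIndex_upper_even p (hn.add hj))
    · have hnj : ¬ Even (n + j) := by
        rw [Nat.even_add]; tauto
      apply le_upper_succ_odd hn hnorm ih
      obtain ⟨m, hm⟩ := relIndex_upper_odd (G := G) p hnj
      rw [hm] at hd
      obtain ⟨i, -, hi⟩ := (Nat.dvd_prime_pow (Fact.out : p.Prime)).mp hd
      exact ⟨i, hi⟩

theorem PLengthLE.quotient_upper [Finite G] {p : ℕ} [Fact p.Prime] {k c : ℕ}
    (h : PLengthLE p (c + k) G) : PLengthLE p c (G ⧸ (upperPSeries p G (2 * k)).1) := by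
  have h1 := map_upper_shift_le (G := G) p (even_two_mul k) (2 * c + 1)
  rw [show 2 * c + 1 + 2 * k = 2 * (c + k) + 1 by ring,
    show (upperPSeries p G (2 * (c + k) + 1)).1 = ⊤ from h, ← MonoidHom.range_eq_map,
    MonoidHom.range_eq_top.mpr (QuotientGroup.mk'_surjective _)] at h1
  exact top_le_iff.mp h1

theorem pLengthLE_zero_of_coprime [Finite G] {p : ℕ} (h : (Nat.card G).Coprime p) : PLengthLE p 0 G := by
  have : (⊤ : Subgroup G) ≤ (upperPSeries p G 1).1 := by
    apply le_upper_succ_even (A := ⊥) (by decide) inferInstance bot_le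
    rw [Subgroup.relIndex_bot_left, Subgroup.card_top]
    exact h
  exact top_le_iff.mp this

end Cfsg.Agent.Lib.Helper29
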