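import Mathlib
import Cfsg.Prelude.Def_Local
import Cfsg.Agent.Lib.Helper29.PLength

set_option autoImplicit false

/-!
# More API for `Cfsg.PLengthLE`: subadditivity
-/

namespace Cfsg.Agent.Lib.Helper29

open Cfsg Cfsg.Agent.Lib.Helper8

variable {G : Type*} [Group G]

theorem upper_characteristic [Finite G] (p : ℕ) [Fact p.Prime] (n : ℕ) :
    (upperPSeries p G n).1.Characteristic :=
  Subgroup.characteristic_iff_map_le.mpr fun φ => map_upper_le p φ.toMonoidHom φ.surjective n

/-- stability of an odd term of the upper series under `p'`-extensions -/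
theorem le_upper_odd_of_coprime [Finite G] {p : ℕ} {j : ℕ} (hj : ¬ Even j) {A B : Subgroup G}
    (hB : B.Normal) (hA : A ≤ (upperPSeries p G j).1) (h : (A.relIndex B).Coprime p) :
    B ≤ (upperPSeries p G j).1 := by
  obtain ⟨i, rfl⟩ : ∃ i, j = i + 1 := ⟨j - 1, by
    rcases j with _ | j
    · exact absurd (by decide) hj
    · rfl⟩
  have hi : Even i := by
    by_contra hne
    exact hj (Nat.even_add_one.mpr hne)
  have hbot : pPrimeCore p (G ⧸ (upperPSeries p G (i + 1)).1) = ⊥ :=
    pPrimeCore_quotient_eq_bot_of_eq (upperPSeries p G i).1 _ (upperPSeries_succ_of_even p G hi)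
  have h1 : B.map (QuotientGroup.mk' (upperPSeries p G (i + 1)).1) ≤
      pPrimeCore p (G ⧸ (upperPSeries p G (i + 1)).1) := by
    apply le_pPrimeCore_of_normal (hB.map _ (QuotientGroup.mk'_surjective _))
    rw [card_map_mk']
    exact Nat.Coprime.of_dvd_left (Subgroup.relIndex_dvd_of_le_left B hA) h
  rw [hbot, le_bot_iff, Subgroup.map_eq_bot_iff, QuotientGroup.ker_mk'] at h1
  exact h1

theorem relIndex_comap_comap {G' : Type*} [Group G'] (f : G →* G') (hf : Function.Surjective f)
    (A B : Subgroup G') : (A.comap f).relIndex (B.comap f) = A.relIndex B := by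
  rw [Subgroup.relIndex_comap, Subgroup.map_comap_eq_self_of_surjective hf]

/-- pull-back of the upper series along a surjection whose kernel lies in an odd term -/
theorem comap_upper_le_of_odd [Finite G] (p : ℕ) [Fact p.Prime] {G' : Type*} [Group G'] [Finite G']
    (f : G →* G') (hf : Function.Surjective f) {j : ℕ} (hj : ¬ Even j)
    (hker : f.ker ≤ (upperPSeries p G j).1) (n : ℕ) :
    (upperPSeries p G' (n + 1)).1.comap f ≤ (upperPSeries p G (n + j)).1 := by
  induction n with
  | zero =>
    rw [zero_add, zero_add]
    apply le_upper_odd_of_coprime hj (Subgroup.Normal.comap inferInstance _) hker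
    have e : f.ker = (upperPSeries p G' 0).1.comap f := (MonoidHom.comap_bot f).symm
    rw [e, relIndex_comap_comap f hf]
    exact relIndex_upper_even p (by decide)
  | succ n ih =>
    have hnorm : ((upperPSeries p G' (n + 1 + 1)).1.comap f).Normal := Subgroup.Normal.comap inferInstance _
    rw [show n + 1 + j = (n + j) + 1 by ring]
    by_cases hn : Even (n + 1)
    · have hnj : Even (n + j) := by
        rw [Nat.even_add]
        rw [Nat.even_add_one] at hn
        tauto
      apply le_upper_succ_even hnj hnorm ih
      rw [relIndex_comap_comap f hf]; exact relIndex_upper_even p hn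
    · have hnj : ¬ Even (n + j) := by
        rw [Nat.even_add]
        rw [Nat.even_add_one] at hn
        tauto
      apply le_upper_succ_odd hnj hnorm ih
      rw [relIndex_comap_comap f hf]; exact relIndex_upper_odd p hn

/-- the upper series of a normal subgroup lies in the upper series of the group -/
theorem map_subtype_upper_le [Finite G] (p : ℕ) [Fact p.Prime] (N : Subgroup G) [N.Normal] (n : ℕ) :
    (upperPSeries p N n).1.map N.subtype ≤ (upperPSeries p G n).1 := by
  induction n with
  | zero =>
    show (⊥ : Subgroup N).map N.subtype ≤ _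
    rw [Subgroup.map_bot]; exact bot_le
  | succ n ih =>
    haveI := upper_characteristic (G := N) p (n + 1)
    have hnorm : ((upperPSeries p N (n + 1)).1.map N.subtype).Normal := inferInstance
    have e := Subgroup.relIndex_map_map_of_injective (f := N.subtype) (upperPSeries p N n).1
      (upperPSeries p N (n + 1)).1 N.subtype_injective
    by_cases hn : Even n
    · apply le_upper_succ_even hn hnorm ih
      rw [e]; exact relIndex_upper_even p hn
    · apply le_upper_succ_odd hn hnorm ih
      rw [e]; exact relIndex_upper_odd p hn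

/-- pull-back of `p`-length along a surjection with kernel of `p`-length at most `a` -/
theorem PLengthLE.of_ker [Finite G] {p : ℕ} [Fact p.Prime] {G' : Type*} [Group G'] [Finite G']
    (f : G →* G') (hf : Function.Surjective f) {a b : ℕ} (h1 : PLengthLE p a f.ker)
    (h2 : PLengthLE p b G') : PLengthLE p (a + b) G := by
  have hN : f.ker ≤ (upperPSeries p G (2 * a + 1)).1 := by
    have := map_subtype_upper_le p f.ker (2 * a + 1)
    rwa [show (upperPSeries p f.ker (2 * a + 1)).1 = ⊤ from h1, ← MonoidHom.range_eq_map,
      Subgroup.range_subtype] at this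
  have h3 := comap_upper_le_of_odd p f hf (j := 2 * a + 1) (by simp) hN (2 * b)
  rw [show (upperPSeries p G' (2 * b + 1)).1 = ⊤ from h2, Subgroup.comap_top] at h3
  show (upperPSeries p G (2 * (a + b) + 1)).1 = ⊤
  rw [show 2 * (a + b) + 1 = 2 * b + (2 * a + 1) by ring]
  exact top_le_iff.mp h3

/-- subadditivity of the `p`-length -/
theorem PLengthLE.of_normal [Finite G] {p : ℕ} [Fact p.Prime] (N : Subgroup G) [N.Normal] {a b : ℕ}
    (h1 : PLengthLE p a N) (h2 : PLengthLE p b (G ⧸ N)) : PLengthLE p (a + b) G := by
  apply PLengthLE.of_ker (QuotientGroup.mk' N) (QuotientGroup.mk'_surjective N) _ h2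
  have e : (QuotientGroup.mk' N).ker = N := QuotientGroup.ker_mk' N
  rw [e]; exact h1

theorem pLengthLE_one_of_isPGroup [Finite G] {p : ℕ} [Fact p.Prime] (h : IsPGroup p G) :
    PLengthLE p 1 G := by
  have h1 : (⊤ : Subgroup G) ≤ (upperPSeries p G 2).1 := by
    apply le_upper_succ_odd (A := ⊥) (by decide) inferInstance bot_le
    rw [Subgroup.relIndex_bot_left, Subgroup.card_top]
    exact IsPGroup.iff_card.mp h
  exact top_le_iff.mp (h1.trans (upper_le_succ p G 2))

theorem coprime_card_of_pLengthLE_zero [Finite G] {p : ℕ} (h : PLengthLE p 0 G) :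
    (Nat.card G).Coprime p := by
  have h1 := relIndex_upper_even (G := G) p (n := 0) (by decide)
  rwa [show (upperPSeries p G 0).1 = ⊥ from rfl, Subgroup.relIndex_bot_left,
    show (upperPSeries p G (0 + 1)).1 = ⊤ from h, Subgroup.card_top] at h1

end Cfsg.Agent.Lib.Helper29
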