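import Mathlib
import Cfsg.Agent.Lib.Helper29.TransBG
import Cfsg.Agent.Lib.Helper16.CharP

/-!
Transitivity passes from `A` to subnormal overgroups with the same primes.
-/

set_option autoImplicit false

namespace Cfsg.Agent.Lib.Helper29

open Subgroup Cfsg
open Cfsg.Agent.Lib.Helper12 (cj mem_cj cj_mul cj_mono card_cj isPGroup_cj normalizer_cj cj_inf
  card_lt_card_of_lt lt_inf_normalizer cj_eq_of_mem_normalizer)
open Cfsg.Agent.Lib.Helper1 (sylImg)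
open scoped Pointwise commutatorElement

variable {G : Type*} [Group G]

theorem primesNotDvd_eq_of_le [Finite G] {A B : Subgroup G} (hAB : A ≤ B)
    (hπ : ∀ r : ℕ, r.Prime → r ∣ Nat.card B → r ∣ Nat.card A) :
    primesNotDvd (Nat.card B) = primesNotDvd (Nat.card A) := by
  ext q
  constructor
  · rintro ⟨hq, h⟩
    exact ⟨hq, fun hd => h (hd.trans (Subgroup.card_dvd_of_le hAB))⟩
  · rintro ⟨hq, h⟩
    exact ⟨hq, fun hd => h (hπ q hq hd)⟩

theorem TH.of_le [Finite G] {A B : Subgroup G} (hA : TransitivityHypothesis A) (hAB : A ≤ B) (hB : B ≠ ⊤)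
    (hπ : ∀ r : ℕ, r.Prime → r ∣ Nat.card B → r ∣ Nat.card A) : TransitivityHypothesis B := by
  have hπ' := primesNotDvd_eq_of_le hAB hπ
  refine ⟨fun h => hA.1 (le_bot_iff.mp (h ▸ hAB)), hB, ?_⟩
  intro X hX hBX
  rw [hπ']
  apply le_antisymm
  · apply sSup_le
    intro Y hY
    exact TH.inv_le hA hX (hAB.trans hBX) hY.1 (coprime_of_primesNotDvd hY.2.1) (hAB.trans hY.2.2)
  · apply le_sSup
    exact ⟨piCoreOf_le _ _, piCoreOf_pi _ _, hBX.trans (le_normalizer_piCoreOf _ _)⟩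

theorem le_normalizer_cj' {A Y : Subgroup G} {k : G} (hk : k ∈ normalizer (A : Set G))
    (h : A ≤ normalizer (Y : Set G)) : A ≤ normalizer (cj k Y : Set G) := by
  intro a ha
  rw [normalizer_cj, mem_cj]
  apply h
  have := (mem_normalizer_iff.mp (inv_mem hk) a).mp ha
  simpa using this

theorem cj_mem_maxInv' [Finite G] {q : ℕ} [Fact q.Prime] {A Q : Subgroup G} {k : G}
    (hk : k ∈ normalizer (A : Set G)) (hQ : Q ∈ maxInvSubgroups ⊤ A {q}) :
    cj k Q ∈ maxInvSubgroups ⊤ A {q} := by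
  have h1 := mem_inv_iff.mp hQ.1
  refine ⟨mem_inv_iff.mpr ⟨isPGroup_cj h1.1 k, le_normalizer_cj' hk h1.2⟩, ?_⟩
  intro R hR hle
  have h2 := mem_inv_iff.mp hR
  have h3 : cj k⁻¹ R ∈ invSubgroups ⊤ A {q} :=
    mem_inv_iff.mpr ⟨isPGroup_cj h2.1 _, le_normalizer_cj' (inv_mem hk) h2.2⟩
  have h4 : Q ≤ cj k⁻¹ R := Cfsg.Agent.Lib.Helper12.cj_le_iff.mp hle
  have h5 := hQ.2 _ h3 h4
  rw [← h5, Cfsg.Agent.Lib.Helper12.cj_cj_inv]

/-- the normal step -/
theorem normal_step [Finite G] (hG : IsMinSimpleOddOrder G) {B B' : Subgroup G}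
    (hB : TransitivityHypothesis B) (hB' : TransitivityHypothesis B')
    (hπ : primesNotDvd (Nat.card B') = primesNotDvd (Nat.card B))
    (hBB' : B ≤ B') (hn : B' ≤ normalizer (B : Set G)) (q : ℕ) [Fact q.Prime] (hqB : ¬ q ∣ Nat.card B)
    (htr : ∀ Q₁ ∈ maxInvSubgroups ⊤ B {q}, ∀ Q₂ ∈ maxInvSubgroups ⊤ B {q},
      ∃ k ∈ piCoreOf (primesNotDvd (Nat.card B)) (centralizer (B : Set G)), Q₂ = cj k Q₁) :
    maxInvSubgroups ⊤ B' {q} ⊆ maxInvSubgroups ⊤ B {q} ∧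
    (∀ Q₁ ∈ maxInvSubgroups ⊤ B' {q}, ∀ Q₂ ∈ maxInvSubgroups ⊤ B' {q},
      ∃ k ∈ piCoreOf (primesNotDvd (Nat.card B')) (centralizer (B' : Set G)), Q₂ = cj k Q₁) := by
  haveI : IsSimpleGroup G := hG.2.1
  have hsolv : Group.IsSolvable B' := hG.2.2.2 B' hB'.2.1
  set K := piCoreOf (primesNotDvd (Nat.card B)) (centralizer (B : Set G)) with hK
  have hKC : K ≤ centralizer (B : Set G) := piCoreOf_le _ _
  have hKB' : B' ≤ normalizer (K : Set G) :=
    hn.trans ((Cfsg.Agent.Lib.Helper16.normalizer_le_normalizer_centralizer B).trans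
      (normalizer_le_normalizer_piCoreOf _ _))
  have hcop : (Nat.card B').Coprime (Nat.card K) := by
    have := core_coprime B' (centralizer (B : Set G))
    rwa [hπ] at this
  have hqB' : ¬ q ∣ Nat.card B' := by
    intro h
    have h1 : q ∈ primesNotDvd (Nat.card B) := ⟨Fact.out, hqB⟩
    rw [← hπ] at h1
    exact h1.2 h
  -- a `B'`-invariant member
  have hex : ∃ Q₀ ∈ maxInvSubgroups ⊤ B {q}, B' ≤ normalizer (Q₀ : Set G) := by
    obtain ⟨Q₀, hQ₀, -⟩ := exists_maxInv_ge (q := q) (A := B) (T := ⊥) IsPGroup.of_bot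
      (by rw [normalizer_eq_top_iff.mpr inferInstance]; exact le_top)
    obtain ⟨k, hk, hk'⟩ := Cfsg.Agent.Lib.Helper1.coprime_exists_conj_le K B' (normalizer (Q₀ : Set G)) hKB'
      hcop.symm (Or.inr hsolv) (by
        intro a ha
        obtain ⟨k, hk, hk'⟩ := htr Q₀ hQ₀ _ (cj_mem_maxInv' (hn ha) hQ₀)
        refine ⟨k⁻¹, inv_mem hk, ?_⟩
        rw [Cfsg.Agent.Lib.Helper12.mem_normalizer_iff_cj, cj_mul, hk',
          Cfsg.Agent.Lib.Helper12.cj_inv_cj])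
    refine ⟨cj k⁻¹ Q₀, cj_mem_maxInv (inv_mem (hKC hk)) hQ₀, ?_⟩
    intro a ha
    rw [normalizer_cj, mem_cj]
    apply hk'
    refine ⟨a, ha, ?_⟩
    simp [MulAut.conj_apply]
  -- (i)
  have hsub : maxInvSubgroups ⊤ B' {q} ⊆ maxInvSubgroups ⊤ B {q} := by
    intro Q hQ
    have hQi := mem_inv_iff.mp hQ.1
    by_cases hQ1 : Q = ⊥
    · obtain ⟨Q₀, hQ₀, hQ₀'⟩ := hex
      have h1 : Q₀ ∈ invSubgroups ⊤ B' {q} := mem_inv_iff.mpr ⟨(mem_inv_iff.mp hQ₀.1).1, hQ₀'⟩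
      have h2 := hQ.2 Q₀ h1 (hQ1 ▸ bot_le)
      rwa [h2] at hQ₀
    refine ⟨mem_inv_iff.mpr ⟨hQi.1, hBB'.trans hQi.2⟩, ?_⟩
    intro R hR hQR
    have hRi := mem_inv_iff.mp hR
    by_contra hne
    have hlt : Q < R := lt_of_le_of_ne hQR (fun h => hne h.symm)
    have hQ2 : Q ≠ ⊤ := fun h => absurd (h ▸ hlt) (not_lt_of_ge le_top)
    have hN := normalizer_ne_top_of_simple hQ1 hQ2
    set L := piCoreOf (primesNotDvd (Nat.card B')) (normalizer (Q : Set G)) with hL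
    have hlt2 := lt_inf_normalizer hRi.1 hlt
    have hBN : B ≤ normalizer ((normalizer (Q : Set G) : Subgroup G) : Set G) :=
      (hBB'.trans hQi.2).trans le_normalizer
    have hR1 : R ⊓ normalizer (Q : Set G) ≤ L := by
      rw [hL, hπ]
      exact TH.inv_le hB hN (hBB'.trans hQi.2) inf_le_right
        (coprime_of_isPGroup hqB (hRi.1.to_le inf_le_left))
        (Cfsg.Agent.Lib.Helper1.le_normalizer_inf hRi.2 hBN)
    have hQL : Q ≤ L := hlt2.le.trans hR1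
    obtain ⟨S, hQS, hS⟩ := Cfsg.Agent.Lib.Helper1.coprime_invariant_psubgroup_le B' L
      (hQi.2.trans (le_normalizer_piCoreOf _ _)) (core_coprime B' _) (Or.inl hsolv) q Q hQL hQi.1 hQi.2
    have hSQ : sylImg S = Q := hQ.2 _ (mem_inv_iff.mpr ⟨Cfsg.Agent.Lib.Helper1.sylImg_isPGroup S, hS⟩) hQS
    -- `Q` is a Sylow subgroup of `L`
    have hsyl : Cfsg.Agent.Lib.Helper12.IsSylIn q Q L := by
      rw [← hSQ]
      exact Cfsg.Agent.Lib.Helper12.isSylIn_of_sylow S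
    have := hsyl.eq_of_le hR1 (hRi.1.to_le inf_le_left) hlt2.le
    exact absurd this hlt2.ne
  refine ⟨hsub, ?_⟩
  intro Q₁ h₁ Q₂ h₂
  obtain ⟨k, hk, hk'⟩ := htr Q₁ (hsub h₁) Q₂ (hsub h₂)
  have hi₁ := mem_inv_iff.mp h₁.1
  have hi₂ := mem_inv_iff.mp h₂.1
  have hcop2 : (Nat.card (K ⊓ normalizer (Q₁ : Set G) : Subgroup G)).Coprime (Nat.card B') :=
    Nat.Coprime.coprime_dvd_left (Subgroup.card_dvd_of_le inf_le_left) hcop.symm
  obtain ⟨n, hn1, hn2⟩ := Cfsg.Agent.Lib.Helper1.coprime_key (K ⊓ normalizer (Q₁ : Set G)) B'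
    (Cfsg.Agent.Lib.Helper1.le_normalizer_inf hKB' (hi₁.2.trans le_normalizer)) hcop2 (Or.inr hsolv) k (by
      intro a ha
      refine Subgroup.mem_inf.mpr ⟨?_, ?_⟩
      · have h1 : a * k * a⁻¹ ∈ K := Cfsg.Agent.Lib.Helper1.conj_mem_of_mem_normalizer (hKB' ha) hk
        have h2 : k⁻¹ * a * k * a⁻¹ = k⁻¹ * (a * k * a⁻¹) := by group
        rw [h2]
        exact mul_mem (inv_mem hk) h1
      · rw [Cfsg.Agent.Lib.Helper12.mem_normalizer_iff_cj]
        have h2 : k⁻¹ * a * k * a⁻¹ = k⁻¹ * (a * (k * a⁻¹)) := by group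
        rw [h2, cj_mul, cj_mul, cj_mul, cj_eq_of_mem_normalizer (inv_mem (hi₁.2 ha)), ← hk',
          cj_eq_of_mem_normalizer (hi₂.2 ha), hk', Cfsg.Agent.Lib.Helper12.cj_inv_cj])
  refine ⟨k * n, ?_, ?_⟩
  · apply TH.cent_le hB' (L := K) hcop
    exact Subgroup.mem_inf.mpr ⟨mul_mem hk (Subgroup.mem_inf.mp hn1).1, hn2⟩
  · rw [cj_mul, cj_eq_of_mem_normalizer (Subgroup.mem_inf.mp hn1).2, hk']


/-- transitivity passes to subnormal overgroups -/
theorem subnormal_trans [Finite G] (hG : IsMinSimpleOddOrder G) {A P : Subgroup G}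
    (hA : TransitivityHypothesis A) (hP : P ≠ ⊤)
    (hPπ : ∀ r : ℕ, r.Prime → r ∣ Nat.card P → r ∣ Nat.card A) (q : ℕ) [Fact q.Prime]
    (hqA : ¬ q ∣ Nat.card A) (H : Subgroup ↥P) (hH : H.IsSubnormal) :
    A ≤ H.map P.subtype →
    (∀ Q₁ ∈ maxInvSubgroups ⊤ (H.map P.subtype) {q}, ∀ Q₂ ∈ maxInvSubgroups ⊤ (H.map P.subtype) {q},
      ∃ k ∈ piCoreOf (primesNotDvd (Nat.card A)) (centralizer ((H.map P.subtype : Subgroup G) : Set G)),
        Q₂ = cj k Q₁) →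
    maxInvSubgroups ⊤ (H.map P.subtype) {q} ⊆ maxInvSubgroups ⊤ A {q} →
    (∀ Q₁ ∈ maxInvSubgroups ⊤ P {q}, ∀ Q₂ ∈ maxInvSubgroups ⊤ P {q},
      ∃ k ∈ piCoreOf (primesNotDvd (Nat.card A)) (centralizer (P : Set G)), Q₂ = cj k Q₁) ∧
    maxInvSubgroups ⊤ P {q} ⊆ maxInvSubgroups ⊤ A {q} := by
  induction hH with
  | top =>
    intro _ h1 h2
    have h3 : (⊤ : Subgroup ↥P).map P.subtype = P := by
      rw [← MonoidHom.range_eq_map, Subgroup.range_subtype]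
    rw [h3] at h1 h2
    exact ⟨h1, h2⟩
  | step H K hHK _ hN ih =>
    intro hAH h1 h2
    have hle : ∀ X : Subgroup ↥P, X.map P.subtype ≤ P := fun X => Cfsg.Agent.Lib.Helper9.map_subtype_le' P X
    have hprime : ∀ X : Subgroup ↥P, ∀ r : ℕ, r.Prime → r ∣ Nat.card (X.map P.subtype) → r ∣ Nat.card A :=
      fun X r hr hd => hPπ r hr (hd.trans (Subgroup.card_dvd_of_le (hle X)))
    have hne : ∀ X : Subgroup ↥P, X.map P.subtype ≠ ⊤ := by
      intro X h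
      apply hP
      rw [eq_top_iff, ← h]
      exact hle X
    have hHK' : H.map P.subtype ≤ K.map P.subtype := Subgroup.map_mono hHK
    have hAK : A ≤ K.map P.subtype := hAH.trans hHK'
    have hπH := primesNotDvd_eq_of_le hAH (hprime H)
    have hπK := primesNotDvd_eq_of_le hAK (hprime K)
    have hqH : ¬ q ∣ Nat.card (H.map P.subtype) := fun h => hqA (hprime H q Fact.out h)
    have hnorm : K.map P.subtype ≤ normalizer ((H.map P.subtype : Subgroup G) : Set G) := by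
      have h3 : K ≤ normalizer (H : Set ↥P) := (Subgroup.normal_subgroupOf_iff_le_normalizer hHK).mp hN
      exact (Subgroup.map_mono h3).trans (Subgroup.le_normalizer_map P.subtype)
    obtain ⟨h4, h5⟩ := normal_step hG (TH.of_le hA hAH (hne H) (hprime H)) (TH.of_le hA hAK (hne K) (hprime K))
      (hπK.trans hπH.symm) hHK' hnorm q hqH (by rw [hπH]; exact h1)
    rw [hπK] at h5
    exact ih hAK h5 (h4.trans h2)


theorem frattini_commutator [Finite G] {P Q K : Subgroup G}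
    (hKn : normalizer (P : Set G) ≤ normalizer (K : Set G)) (hKP : K ≤ normalizer (P : Set G))
    (hcop : (Nat.card P).Coprime (Nat.card K)) (hPQ : P ≤ normalizer (Q : Set G))
    (hfac : ∀ x ∈ normalizer (P : Set G), ∃ k ∈ K, k⁻¹ * x ∈ normalizer (Q : Set G)) :
    P ⊓ ⁅normalizer (P : Set G), normalizer (P : Set G)⁆ ≤ ⁅normalizer (Q : Set G), normalizer (Q : Set G)⁆ ∧
      normalizer (P : Set G) = K ⊔ (normalizer (P : Set G) ⊓ normalizer (Q : Set G)) := by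
  set N := normalizer (P : Set G) with hN
  set N₁ := N ⊓ normalizer (Q : Set G) with hN₁
  set D : Subgroup G := ⁅N₁, N₁⁆ with hD
  have hdec : ∀ x ∈ N, ∃ k ∈ K, ∃ n ∈ N₁, x = k * n := by
    intro x hx
    obtain ⟨k, hk, hk'⟩ := hfac x hx
    exact ⟨k, hk, k⁻¹ * x, Subgroup.mem_inf.mpr ⟨mul_mem (inv_mem (hKP hk)) hx, hk'⟩, by group⟩
  have hDN₁ : D ≤ N₁ := Cfsg.Agent.Lib.Helper1.commutator_le_of_le_normalizer le_normalizer
  have hN₁D : N₁ ≤ normalizer (D : Set G) := Cfsg.Agent.Lib.Helper1.le_normalizer_commutator_left N₁ N₁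
  have hN₁K : N₁ ≤ normalizer (K : Set G) := inf_le_left.trans hKn
  constructor
  · have h1 : ⁅N, N⁆ ≤ K ⊔ D := by
      rw [Subgroup.commutator_le]
      intro g₁ hg₁ g₂ hg₂
      obtain ⟨k₁, hk₁, n₁, hn₁, rfl⟩ := hdec g₁ hg₁
      obtain ⟨k₂, hk₂, n₂, hn₂, rfl⟩ := hdec g₂ hg₂
      have e : ⁅k₁ * n₁, k₂ * n₂⁆ = k₁ * (n₁ * k₂ * n₁⁻¹) * ((n₁ * n₂ * n₁⁻¹) * k₁⁻¹ * (n₁ * n₂ * n₁⁻¹)⁻¹) *
          (⁅n₁, n₂⁆ * k₂⁻¹ * ⁅n₁, n₂⁆⁻¹) * ⁅n₁, n₂⁆ := by
        simp only [commutatorElement_def]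
        group
      rw [e]
      have hc : ⁅n₁, n₂⁆ ∈ D := Subgroup.commutator_mem_commutator hn₁ hn₂
      refine mul_mem (mem_sup_left ?_) (mem_sup_right hc)
      refine mul_mem (mul_mem (mul_mem hk₁ ?_) ?_) ?_
      · exact Cfsg.Agent.Lib.Helper1.conj_mem_of_mem_normalizer (hN₁K hn₁) hk₂
      · exact Cfsg.Agent.Lib.Helper1.conj_mem_of_mem_normalizer
          (hN₁K (mul_mem (mul_mem hn₁ hn₂) (inv_mem hn₁))) (inv_mem hk₁)
      · exact Cfsg.Agent.Lib.Helper1.conj_mem_of_mem_normalizer (hN₁K (hDN₁ hc)) (inv_mem hk₂)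
    intro x hx
    have hxP := (Subgroup.mem_inf.mp hx).1
    obtain ⟨k, hk, d, hd, hxe⟩ := (Cfsg.Agent.Lib.Helper1.mem_sup_of_le_normalizer (hDN₁.trans hN₁K)).mp
      (h1 (Subgroup.mem_inf.mp hx).2)
    have hxN₁ : x ∈ N₁ := Subgroup.mem_inf.mpr ⟨le_normalizer hxP, hPQ hxP⟩
    have hkN₁ : k ∈ N₁ := by
      have : k = x * d⁻¹ := by rw [hxe]; group
      rw [this]
      exact mul_mem hxN₁ (inv_mem (hDN₁ hd))
    have hpow : ∀ j : ℕ, ∃ e ∈ D, x ^ j = k ^ j * e := by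
      intro j
      induction j with
      | zero => exact ⟨1, one_mem _, by simp⟩
      | succ j ih =>
        obtain ⟨e, he, hj⟩ := ih
        refine ⟨k⁻¹ * e * k * d, mul_mem
          (Cfsg.Agent.Lib.Helper1.conj_mem_of_mem_normalizer' (hN₁D hkN₁) he) hd, ?_⟩
        rw [pow_succ, hj, pow_succ]
        nth_rewrite 1 [hxe]
        group
    obtain ⟨e, he, hj⟩ := hpow (Nat.card K)
    have hk1 : k ^ Nat.card K = 1 := orderOf_dvd_iff_pow_eq_one.mp (K.orderOf_dvd_natCard hk)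
    rw [hk1, one_mul] at hj
    have hco : (Nat.card K).Coprime (orderOf x) :=
      Nat.Coprime.coprime_dvd_right (P.orderOf_dvd_natCard hxP) hcop.symm
    obtain ⟨m, hm⟩ := exists_pow_eq_self_of_coprime hco
    have hxD : x ∈ D := by
      rw [← hm, hj]
      exact pow_mem he m
    exact Subgroup.commutator_mono inf_le_right inf_le_right hxD
  · apply le_antisymm
    · intro x hx
      obtain ⟨k, hk, n, hn, rfl⟩ := hdec x hx
      exact mul_mem (mem_sup_left hk) (mem_sup_right hn)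
    · exact sup_le hKP inf_le_left

end Cfsg.Agent.Lib.Helper29
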