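import Cfsg.Agent.Lib.Helper29.BenderInv
import Cfsg.Agent.Lib.Helper29.TransSub
import Cfsg.Agent.Lib.Helper16.Subn
import Cfsg.Agent.S1393
import Cfsg.Agent.S1395

/-! Towards Bender–Glauberman, Theorem 8.1. -/

set_option autoImplicit false
set_option linter.unusedSectionVars false
open Cfsg Subgroup
open Cfsg.Agent.Lib.Helper16 (FsOf FOf EOf BHalf CharP)
open Cfsg.Agent.Lib.Helper12 (cj mem_cj cj_mono card_cj)
open scoped commutatorElement

namespace Cfsg.Agent.Lib.Helper29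

variable {G : Type*} [Group G] [Finite G]

theorem fittingOf_nilpotent (H : Subgroup G) : Group.IsNilpotent (fittingOf H) := by
  haveI h1 : Group.IsNilpotent (fittingSubgroup H) := Cfsg.Agent.Lib.Helper1.fitting_nilpotent
  exact Group.nilpotent_of_mulEquiv ((fittingSubgroup H).equivMapOfInjective H.subtype H.subtype_injective)

theorem inf_centralizer_fittingOf_le (H : Subgroup G) [Group.IsSolvable H] :
    H ⊓ centralizer (fittingOf H : Set G) ≤ fittingOf H := by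
  have h := Cfsg.Agent.Lib.Helper16.inf_centralizer_fsOf_le H
  rw [fsOf_eq_fOf_of_solvable] at h
  exact h

theorem eq_bot_of_forall_prime_not_dvd {Y : Subgroup G} (h : ∀ q : ℕ, q.Prime → ¬ q ∣ Nat.card Y) : Y = ⊥ := by
  rw [← Subgroup.card_eq_one]
  by_contra hne
  obtain ⟨q, hq, hd⟩ := Nat.exists_prime_and_dvd hne
  exact h q hq hd

theorem inv_trivial (hG : IsMinSimpleOddOrder G) {Mx U : Subgroup G} (hM : IsCoatom Mx)
    (hUF : U ≤ fittingOf Mx) (hTH : TransitivityHypothesis U)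
    (hZ : ¬ RankLE 2 ↥(U ⊓ centralizer (U : Set G)))
    (hπ : ∀ r : ℕ, r.Prime → r ∣ Nat.card (fittingOf Mx) → r ∣ Nat.card U)
    (q : ℕ) [hq : Fact q.Prime] (hqF : ¬ q ∣ Nat.card (fittingOf Mx))
    {T : Subgroup G} (hT : IsPGroup q T) (hUT : U ≤ normalizer (T : Set G)) : T = ⊥ := by
  haveI := hG.2.1
  haveI hsM := solvable_of_coatom hG hM
  have hqU : ¬ q ∣ Nat.card U := fun h => hqF (h.trans (card_dvd_of_le hUF))
  have htr := Cfsg.Agent.S1393.result hG U hTH hZ q hq.out hqU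
  have hFM : fittingOf Mx ≤ Mx := fittingOf_le Mx
  have hFtop : fittingOf Mx ≠ ⊤ := fun h => hM.1 (top_le_iff.mp (h ▸ hFM))
  have hFbot : fittingOf Mx ≠ ⊥ := fun h => hTH.1 (le_bot_iff.mp (h ▸ hUF))
  haveI := fittingOf_nilpotent Mx
  have hsn : (U.subgroupOf (fittingOf Mx)).IsSubnormal := Cfsg.Agent.Lib.Helper16.isSubnormal_of_nilpotent' _
  obtain ⟨-, hb, hc, -⟩ := Cfsg.Agent.S1395.result hG U hTH q hq.out hqU (fittingOf Mx) hFtop hπ hUF hsn htr
  have hNF : normalizer (fittingOf Mx : Set G) = Mx :=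
    normalizer_eq_of_coatom hG hM hFbot hFM (Cfsg.Agent.Lib.Helper16.le_normalizer_fOf Mx)
  have hK : piCoreOf (primesNotDvd (Nat.card U)) (centralizer (fittingOf Mx : Set G)) = ⊥ := by
    apply eq_bot_of_forall_prime_not_dvd
    intro r hr hd
    have h1 := piCoreOf_pi _ _ r hr hd
    apply h1.2
    apply hπ r hr
    refine hd.trans (card_dvd_of_le ?_)
    refine le_trans ?_ (inf_centralizer_fittingOf_le Mx)
    refine le_inf ?_ (piCoreOf_le _ _)
    exact ((piCoreOf_le _ _).trans (centralizer_le_normalizer _)).trans hNF.le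
  obtain ⟨Q, hQ, -⟩ := exists_maxInv_ge (q := q) (A := fittingOf Mx) (T := ⊥) (IsPGroup.of_bot)
    (by rw [normalizer_eq_top_iff.mpr (inferInstance : (⊥ : Subgroup G).Normal)]; exact le_top)
  have huniq : ∀ Q' ∈ maxInvSubgroups ⊤ (fittingOf Mx) {q}, Q' = Q := by
    intro Q' hQ'
    obtain ⟨k, hk, hkQ⟩ := hb Q hQ Q' hQ'
    rw [hK, mem_bot] at hk
    rw [hkQ, hk]
    ext x
    simp
  have hMQ : Mx ≤ normalizer (Q : Set G) := by
    intro m hm
    rw [Cfsg.Agent.Lib.Helper12.mem_normalizer_iff_cj]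
    exact huniq _ (cj_mem_maxInv' (hNF.ge hm) hQ)
  have hQp : IsPGroup q Q := (mem_inv_iff.mp hQ.1).1
  have hQbot : Q = ⊥ := by
    by_contra hne
    have hQtop : Q ≠ ⊤ := by
      intro h
      apply hqF
      have h1 : IsPGroup q (fittingOf Mx) := hQp.to_le (h ▸ le_top)
      obtain ⟨n, hn⟩ := IsPGroup.iff_card.mp h1
      rcases n with _ | n
      · exact absurd ((Subgroup.card_eq_one).mp (by rw [hn, pow_zero])) hFbot
      · rw [hn]; exact dvd_pow_self q (Nat.succ_ne_zero n)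
    have h1 : normalizer (Q : Set G) ≠ ⊤ := normalizer_ne_top_of_simple hne hQtop
    have h2 : normalizer (Q : Set G) = Mx := by
      by_contra h3
      exact h1 (hM.2 _ (lt_of_le_of_ne hMQ (Ne.symm h3)))
    have h3 : Q ≤ pCoreOf q Mx := Cfsg.Agent.Lib.Helper16.le_pCoreOf (h2 ▸ le_normalizer) hMQ hQp
    have h4 : pCoreOf q Mx = ⊥ := by
      by_contra h5
      exact hqF (dvd_of_pCoreOf_ne_bot h5)
    exact hne (le_bot_iff.mp (h4 ▸ h3))
  have hQU := hc hQ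
  have h5 := hQU.2 T (mem_inv_iff.mpr ⟨hT, hUT⟩) (hQbot ▸ bot_le)
  rw [h5, hQbot]

theorem not_rankLE_of_elemAb {p k : ℕ} (hp : p.Prime) {E X : Subgroup G} (hE : IsElementaryAbelian p E)
    (hEX : E ≤ X) (hcard : p ^ k < Nat.card E) : ¬ RankLE k ↥X := by
  intro h
  have h1 := h p hp (E.subgroupOf X) (Cfsg.Agent.Lib.Helper4.elemAb_subgroupOf X hE).1
    (Cfsg.Agent.Lib.Helper4.elemAb_subgroupOf X hE).2
  rw [Cfsg.Agent.Lib.Helper4.card_subgroupOf_of_le hEX] at h1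
  omega

theorem le_centralizer_self_of_comm {A : Subgroup G} (h : IsMulCommutative A) : A ≤ centralizer (A : Set G) := by
  intro a ha
  rw [mem_centralizer_iff]
  intro b hb
  exact congrArg Subtype.val (h.is_comm.comm ⟨b, hb⟩ ⟨a, ha⟩)

/-- the hypotheses of Bender's lemma for a maximal subgroup of a minimal simple group of odd order -/
theorem bInv_of_coatom (hG : IsMinSimpleOddOrder G) {Mx U X : Subgroup G} (hM : IsCoatom Mx)
    (hF2 : ∀ q : ℕ, ∃ r : ℕ, r.Prime ∧ r ≠ q ∧ pCoreOf r Mx ≠ ⊥)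
    (hUF : U ≤ fittingOf Mx) (hCU : fittingOf Mx ⊓ centralizer (U : Set G) ≤ U)
    (hX : X ≠ ⊤) (hUX : U ≤ X) : BInv Mx U X := by
  haveI hsM := solvable_of_coatom hG hM
  refine ⟨?_, hF2, hUF, hCU, hG.2.2.2 X hX, hUX.trans le_normalizer, ?_⟩
  · intro r hr hrH
    have := Fact.mk hr
    exact (normalizer_eq_of_coatom hG hM
      (Cfsg.Agent.Lib.Helper16.center_ne_bot (Cfsg.Agent.Lib.Helper16.pCoreOf_isPGroup Mx) hrH)
      (inf_le_left.trans (Cfsg.Agent.Lib.Helper16.pCoreOf_le Mx)) (le_normalizer_zCoreOf r Mx)).le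
  · refine le_trans ?_ (hUX.trans le_normalizer)
    refine le_trans ?_ hCU
    exact le_inf (inf_centralizer_fittingOf_le Mx) (inf_le_right.trans (centralizer_le hUF))

theorem dvd_card_of_zCoreOf_le {Mx U : Subgroup G} (hZU : ∀ r : ℕ, r.Prime → zCoreOf r Mx ≤ U) :
    ∀ r : ℕ, r.Prime → r ∣ Nat.card (fittingOf Mx) → r ∣ Nat.card U := by
  intro r hr hd
  have := Fact.mk hr
  have h1 : zCoreOf r Mx ≠ ⊥ :=
    Cfsg.Agent.Lib.Helper16.center_ne_bot (Cfsg.Agent.Lib.Helper16.pCoreOf_isPGroup Mx) (pCoreOf_ne_bot_of_dvd hd)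
  have h2 : IsPGroup r (zCoreOf r Mx) := (Cfsg.Agent.Lib.Helper16.pCoreOf_isPGroup Mx).to_le inf_le_left
  obtain ⟨n, hn⟩ := IsPGroup.iff_card.mp h2
  rcases n with _ | n
  · exact absurd ((Subgroup.card_eq_one).mp (by rw [hn, pow_zero])) h1
  · exact ((dvd_pow_self r (Nat.succ_ne_zero n)).trans hn.symm.dvd).trans (card_dvd_of_le (hZU r hr))

/-- the transitivity hypothesis for a large subgroup of `F(M)` -/
theorem TH_of_fitting (hG : IsMinSimpleOddOrder G) {Mx U : Subgroup G} (hM : IsCoatom Mx)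
    (hF2 : ∀ q : ℕ, ∃ r : ℕ, r.Prime ∧ r ≠ q ∧ pCoreOf r Mx ≠ ⊥)
    (hUF : U ≤ fittingOf Mx) (hCU : fittingOf Mx ⊓ centralizer (U : Set G) ≤ U) :
    TransitivityHypothesis U := by
  have hZU : ∀ r : ℕ, r.Prime → zCoreOf r Mx ≤ U := by
    intro r hr
    have := Fact.mk hr
    exact ((zCoreOf_le_center_fitting r Mx).trans (inf_le_inf_left _ (centralizer_le hUF))).trans hCU
  have hπ := dvd_card_of_zCoreOf_le hZU
  have hπ' := primesNotDvd_eq_of_le hUF hπ
  refine ⟨?_, fun h => hM.1 (top_le_iff.mp (h ▸ hUF.trans (fittingOf_le Mx))), ?_⟩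
  · intro h
    obtain ⟨r, hr, -, hrH⟩ := hF2 0
    have := Fact.mk hr
    have h1 := hπ r hr (dvd_of_pCoreOf_ne_bot hrH)
    rw [h, Subgroup.card_bot] at h1
    exact hr.one_lt.ne' (Nat.dvd_one.mp h1)
  · intro X hX hUX
    have hB := bInv_of_coatom hG hM hF2 hUF hCU hX hUX
    rw [← hπ']
    apply le_antisymm
    · apply sSup_le
      rintro Y ⟨hYX, hYπ, hUY⟩
      exact hB.le_piCoreOf hYX (coprime_of_primesNotDvd hYπ).symm hUY
    · exact le_sSup ⟨piCoreOf_le _ _, piCoreOf_pi _ _, hUX.trans (le_normalizer_piCoreOf _ _)⟩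

/-- Bender–Glauberman, Theorem 8.1(a). -/
theorem bg81a (hG : IsMinSimpleOddOrder G) {Mx A₀ : Subgroup G} (hM : IsCoatom Mx) (p : ℕ) [hp : Fact p.Prime]
    (hA₀ : A₀ ≤ fittingOf Mx) (hA₀e : IsElementaryAbelian p A₀) (hA₀3 : p ^ 3 ≤ Nat.card A₀)
    (hnp : ¬ IsPGroup p (fittingOf Mx)) : InUniqueMaximal (fittingOf Mx ⊓ centralizer (A₀ : Set G)) := by
  obtain ⟨U, hU⟩ : ∃ U, U = fittingOf Mx ⊓ centralizer (A₀ : Set G) := ⟨_, rfl⟩
  rw [← hU]
  have hUF : U ≤ fittingOf Mx := hU ▸ inf_le_left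
  have hA₀U : A₀ ≤ U := hU ▸ le_inf hA₀ (le_centralizer_self_of_comm hA₀e.1)
  have hCU : fittingOf Mx ⊓ centralizer (U : Set G) ≤ U := by
    conv_rhs => rw [hU]
    exact inf_le_inf_left _ (centralizer_le hA₀U)
  have hpF : p ∣ Nat.card (fittingOf Mx) := by
    have h1 : p ∣ Nat.card A₀ := by
      obtain ⟨n, hn⟩ := IsPGroup.iff_card.mp (Cfsg.Agent.Lib.Helper4.elemAb_isPGroup hA₀e)
      rcases n with _ | n
      · rw [hn, pow_zero] at hA₀3
        have := Nat.one_lt_pow (n := 3) (by norm_num) hp.out.one_lt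
        omega
      · rw [hn]; exact dvd_pow_self p (Nat.succ_ne_zero n)
    exact h1.trans (card_dvd_of_le hA₀)
  obtain ⟨s, hs, hsp, hsF⟩ : ∃ s : ℕ, s.Prime ∧ s ≠ p ∧ s ∣ Nat.card (fittingOf Mx) := by
    by_contra hcon
    push Not at hcon
    apply hnp
    exact IsPGroup.of_card (Nat.eq_prime_pow_of_unique_prime_dvd (n := Nat.card (fittingOf Mx)) (p := p)
      Nat.card_pos.ne' (fun {r} hr hd => by
        by_contra hne
        exact hcon r hr hne hd))
  have hF2 : ∀ q : ℕ, ∃ r : ℕ, r.Prime ∧ r ≠ q ∧ pCoreOf r Mx ≠ ⊥ := by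
    intro q
    have := Fact.mk hs
    by_cases hq : q = p
    · exact ⟨s, hs, hq ▸ hsp, pCoreOf_ne_bot_of_dvd hsF⟩
    · exact ⟨p, hp.out, Ne.symm hq, pCoreOf_ne_bot_of_dvd hpF⟩
  have hTH := TH_of_fitting hG hM hF2 hUF hCU
  have hZU : ∀ r : ℕ, r.Prime → zCoreOf r Mx ≤ U := by
    intro r hr
    have := Fact.mk hr
    exact ((zCoreOf_le_center_fitting r Mx).trans (inf_le_inf_left _ (centralizer_le hUF))).trans hCU
  have hZ : ¬ RankLE 2 ↥(U ⊓ centralizer (U : Set G)) := by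
    apply not_rankLE_of_elemAb hp.out hA₀e
    · refine le_inf hA₀U ?_
      rw [le_centralizer_iff, hU]
      exact inf_le_right
    · exact lt_of_lt_of_le (Nat.pow_lt_pow_right hp.out.one_lt (by norm_num)) hA₀3
  refine ⟨Mx, ⟨hM, hUF.trans (fittingOf_le Mx)⟩, ?_⟩
  rintro L ⟨hL, hUL⟩
  apply bender_center_uniqueness hG hM hL hF2 (fun r hr => (hZU r hr).trans hUL)
  intro q hq hqM
  have := Fact.mk hq
  apply inv_trivial hG hM hUF hTH hZ (dvd_card_of_zCoreOf_le hZU) q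
    (fun hd => pCoreOf_ne_bot_of_dvd hd hqM) (Cfsg.Agent.Lib.Helper16.pCoreOf_isPGroup L)
  exact hUL.trans (Cfsg.Agent.Lib.Helper16.le_normalizer_pCoreOf L)

end Cfsg.Agent.Lib.Helper29
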