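import Cfsg.Agent.Lib.Helper29.BenderU
import Cfsg.Agent.Lib.Helper29.TransTH
import Cfsg.Agent.Lib.Helper8.CoprimeAct
import Cfsg.Agent.Lib.Helper8.FStar
import Cfsg.Agent.S0661

/-! Bender's lemma on subgroups invariant under a large subgroup of the Fitting subgroup of a maximal local
subgroup. -/

set_option autoImplicit false
set_option linter.unusedSectionVars false
open Cfsg Subgroup
open Cfsg.Agent.Lib.Helper16 (FsOf FOf EOf BHalf CharP)
open scoped commutatorElement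

namespace Cfsg.Agent.Lib.Helper29

variable {G : Type*} [Group G] [Finite G]

/-- relative form of `O_{p'}(N_X(P)) ≤ O_{p'}(X)` for solvable `X`. -/
theorem goldschmidt_rel (p : ℕ) [hp : Fact p.Prime] (X : Subgroup G) [hs : Group.IsSolvable X] {P N₀ : Subgroup G}
    (hP : IsPGroup p P) (hPX : P ≤ X) (hN₀X : N₀ ≤ X) (hN₀N : N₀ ≤ normalizer (P : Set G))
    (hnorm : X ⊓ normalizer (P : Set G) ≤ normalizer (N₀ : Set G)) (hcop : (Nat.card N₀).Coprime p) :
    N₀ ≤ (pPrimeCore p X).map X.subtype := by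
  have hc : centralizer (pCore p (X ⧸ pPrimeCore p X) : Set (X ⧸ pPrimeCore p X)) ≤ pCore p (X ⧸ pPrimeCore p X) := by
    haveI : Group.IsSolvable (X ⧸ pPrimeCore p X) :=
      Group.isSolvable_of_surjective (QuotientGroup.mk'_surjective (pPrimeCore p X))
    exact Cfsg.Agent.Lib.Helper1.centralizer_pCore_le p (Cfsg.Agent.Lib.Helper1.pPrimeCore_quotient_eq_bot p)
  have h1 := Cfsg.Agent.S0661.result hc (P.subgroupOf X) hP.comap_subtype
  obtain ⟨NN, hNN⟩ : ∃ NN : Subgroup X, NN = normalizer ((P.subgroupOf X : Subgroup X) : Set X) := ⟨_, rfl⟩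
  rw [← hNN] at h1
  have hmemNN : ∀ x : X, x ∈ NN → (x : G) ∈ normalizer (P : Set G) := by
    intro x hx
    rw [hNN] at hx
    apply Cfsg.Agent.Lib.Helper1.mem_normalizer_of_conj_mem
    intro u hu
    exact (mem_normalizer_iff.mp hx ⟨u, hPX hu⟩).mp (mem_subgroupOf.mpr hu)
  have hN₀NN : N₀.subgroupOf X ≤ NN := by
    intro x hx
    rw [hNN, mem_normalizer_iff]
    intro y
    exact mem_normalizer_iff.mp (hN₀N (mem_subgroupOf.mp hx)) (y : G)
  have hnor : ((N₀.subgroupOf X).subgroupOf NN).Normal := by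
    apply Subgroup.normal_subgroupOf_of_le_normalizer
    intro x hx
    rw [mem_normalizer_iff]
    intro y
    exact mem_normalizer_iff.mp (hnorm (mem_inf.mpr ⟨x.2, hmemNN x hx⟩)) (y : G)
  have hcard : Nat.card ((N₀.subgroupOf X).subgroupOf NN) = Nat.card N₀ := by
    rw [Nat.card_congr (Subgroup.subgroupOfEquivOfLe hN₀NN).toEquiv,
      Nat.card_congr (Subgroup.subgroupOfEquivOfLe hN₀X).toEquiv]
  have h2 : (N₀.subgroupOf X).subgroupOf NN ≤ pPrimeCore p NN := le_sSup ⟨hnor, by rw [hcard]; exact hcop⟩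
  have h3 : N₀.subgroupOf X ≤ pPrimeCore p X := by
    have h4 : N₀.subgroupOf X = ((N₀.subgroupOf X).subgroupOf NN).map NN.subtype :=
      (Subgroup.map_subgroupOf_eq_of_le hN₀NN).symm
    rw [h4]
    exact ((Subgroup.map_mono h2).trans h1.le).trans inf_le_left
  calc N₀ = (N₀.subgroupOf X).map X.subtype := (Subgroup.map_subgroupOf_eq_of_le hN₀X).symm
    _ ≤ _ := Subgroup.map_mono h3

theorem le_centralizer_of_normalize' {A B C : Subgroup G} (hAC : A ≤ normalizer (C : Set G)) (hBC : B ≤ C)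
    (hBA : B ≤ normalizer (A : Set G)) (hd : A ⊓ C = ⊥) : A ≤ centralizer (B : Set G) := by
  intro a ha
  rw [mem_centralizer_iff]
  intro b hb
  have h1 : a * b * a⁻¹ ∈ C := (mem_normalizer_iff.mp (hAC ha) b).mp (hBC hb)
  have h2 : b * a⁻¹ * b⁻¹ ∈ A := (mem_normalizer_iff.mp (hBA hb) a⁻¹).mp (A.inv_mem ha)
  have h3 : a * b * a⁻¹ * b⁻¹ ∈ A ⊓ C := by
    refine mem_inf.mpr ⟨?_, C.mul_mem h1 (C.inv_mem (hBC hb))⟩
    have := A.mul_mem ha h2
    simpa [mul_assoc] using this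
  rw [hd, mem_bot] at h3
  have : a * b = b * a := by
    have h4 : a * b * a⁻¹ * b⁻¹ * (b * a) = b * a := by rw [h3, one_mul]
    rw [← h4]; group
  exact this.symm

theorem inf_eq_bot_of_coprime {A B : Subgroup G} (h : (Nat.card A).Coprime (Nat.card B)) : A ⊓ B = ⊥ := by
  rw [← Subgroup.card_eq_one]
  exact Nat.eq_one_of_dvd_coprimes h (card_dvd_of_le inf_le_left) (card_dvd_of_le inf_le_right)

theorem pCoreOf_inf_centralizer_le {H M : Subgroup G} (hM : M ≤ fittingOf H) (p : ℕ) [Fact p.Prime] :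
    pCoreOf p H ⊓ centralizer ((M ⊓ pCoreOf p H : Subgroup G) : Set G) ≤ centralizer (M : Set G) := by
  intro u hu
  obtain ⟨hu1, hu2⟩ := mem_inf.mp hu
  have h1 : M ≤ centralizer ({u} : Set G) := by
    intro g hg
    apply Cfsg.Agent.Lib.Helper20.mem_of_primary_mem
    intro s x hs hx hxo
    have := Fact.mk hs
    have hxM : x ∈ M := (zpowers_le.mpr hg) hx
    have hxs : x ∈ pCoreOf s H := by
      have h2 : zpowers x ≤ pCoreOf s H := by
        apply Cfsg.Agent.Lib.Helper16.le_pCoreOf_of_le_fOf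
        · obtain ⟨k, hk⟩ := hxo
          apply IsPGroup.of_card (n := k)
          rw [Nat.card_zpowers, hk]
        · rw [zpowers_le]; exact hM hxM
      exact h2 (mem_zpowers x)
    rw [mem_centralizer_singleton_iff]
    by_cases hsp : s = p
    · subst hsp
      exact (mem_centralizer_iff.mp hu2 x (mem_inf.mpr ⟨hxM, hxs⟩))
    · exact (mem_centralizer_iff.mp (pCoreOf_comm hsp H hxs) u hu1).symm
  rw [mem_centralizer_iff]
  intro m hm
  exact (mem_centralizer_singleton_iff.mp (h1 hm))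

theorem cent_fitting_inf_le {H R : Subgroup G} (hR : Group.IsSolvable R)
    (hXR : H ⊓ centralizer (fittingOf H : Set G) ≤ normalizer (R : Set G)) :
    H ⊓ centralizer (fittingOf H : Set G) ⊓ R ≤ fittingOf H := by
  haveI hFn : (fittingSubgroup H).Normal := Cfsg.Agent.Lib.Helper8.fittingSubgroup_normal
  obtain ⟨X', hX'⟩ : ∃ X' : Subgroup H, X' = centralizer (fittingSubgroup H : Set H) := ⟨_, rfl⟩
  have hX'n : X'.Normal := by rw [hX']; infer_instance
  have hmem : ∀ x : H, x ∈ X' → (x : G) ∈ H ⊓ centralizer (fittingOf H : Set G) := by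
    intro x hx
    refine mem_inf.mpr ⟨x.2, ?_⟩
    rw [mem_centralizer_iff]
    rintro _ ⟨y, hy, rfl⟩
    rw [hX'] at hx
    exact congrArg Subtype.val (mem_centralizer_iff.mp hx y hy)
  have hD : (X' ⊓ R.subgroupOf H).IsSubnormal := by
    refine IsSubnormal.step _ X' inf_le_left hX'n.isSubnormal ?_
    apply Subgroup.normal_subgroupOf_of_le_normalizer
    apply Cfsg.Agent.Lib.Helper1.le_normalizer_inf le_normalizer
    intro x hx
    rw [mem_normalizer_iff]
    intro y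
    exact mem_normalizer_iff.mp (hXR (hmem x hx)) (y : G)
  have hDs : Group.IsSolvable (X' ⊓ R.subgroupOf H : Subgroup H) := by
    let f : (X' ⊓ R.subgroupOf H : Subgroup H) →* R :=
      { toFun := fun x => ⟨((x : H) : G), (mem_inf.mp x.2).2⟩
        map_one' := rfl
        map_mul' := fun _ _ => rfl }
    apply Group.isSolvable_of_isSolvable_injective (f := f)
    intro a b hab
    apply Subtype.ext
    apply Subtype.ext
    exact congrArg (fun z : R => (z : G)) hab
  have h1 := Cfsg.Agent.Lib.Helper8.le_fitting_of_isSolvable_of_le_centralizer hD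
    (by rw [← hX']; exact inf_le_left) hDs
  intro x hx
  obtain ⟨hx1, hxR⟩ := mem_inf.mp hx
  obtain ⟨hxH, hxc⟩ := mem_inf.mp hx1
  refine ⟨⟨x, hxH⟩, h1 (mem_inf.mpr ⟨?_, mem_subgroupOf.mpr hxR⟩), rfl⟩
  rw [hX', mem_centralizer_iff]
  intro y hy
  exact Subtype.ext (mem_centralizer_iff.mp hxc (y : G) ⟨y, hy, rfl⟩)

/-- the hypotheses of Bender's lemma -/
structure BInv (H M R : Subgroup G) : Prop where
  hNZ : ∀ r : ℕ, r.Prime → pCoreOf r H ≠ ⊥ → normalizer (zCoreOf r H : Set G) ≤ H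
  hF2 : ∀ q : ℕ, ∃ r : ℕ, r.Prime ∧ r ≠ q ∧ pCoreOf r H ≠ ⊥
  hM : M ≤ fittingOf H
  hCM : fittingOf H ⊓ centralizer (M : Set G) ≤ M
  hR : Group.IsSolvable R
  hMR : M ≤ normalizer (R : Set G)
  hXR : H ⊓ centralizer (fittingOf H : Set G) ≤ normalizer (R : Set G)

theorem fittingOf_le (H : Subgroup G) : fittingOf H ≤ H := Subgroup.map_subtype_le _

theorem fittingOf_solvable (H : Subgroup G) : Group.IsSolvable (fittingOf H) := by
  have h1 : Group.IsSolvable (fittingSubgroup H) := Cfsg.Agent.Lib.Helper9.fitting_solvable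
  exact Group.isSolvable_of_surjective
    (f := ((fittingSubgroup H).equivMapOfInjective H.subtype H.subtype_injective).toMonoidHom)
    ((fittingSubgroup H).equivMapOfInjective H.subtype H.subtype_injective).surjective

variable {H M R : Subgroup G}

theorem BInv.zCoreOf_le (h : BInv H M R) (r : ℕ) [Fact r.Prime] : zCoreOf r H ≤ M ⊓ pCoreOf r H :=
  le_inf (((zCoreOf_le_center_fitting r H).trans (inf_le_inf_left _ (centralizer_le h.hM))).trans h.hCM)
    inf_le_left

theorem BInv.solvable_M (h : BInv H M R) : Group.IsSolvable M := by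
  have := fittingOf_solvable H
  exact Group.isSolvable_of_isSolvable_injective (Subgroup.inclusion_injective h.hM)

theorem BInv.cent_eq_bot (h : BInv H M R) {Y : Subgroup G} (hYR : Y ≤ R)
    (hYπ : (Nat.card Y).Coprime (Nat.card (fittingOf H))) (hMY : M ≤ normalizer (Y : Set G))
    {r : ℕ} (hr : r.Prime) (hrH : pCoreOf r H ≠ ⊥) :
    Y ⊓ centralizer ((M ⊓ pCoreOf r H : Subgroup G) : Set G) = ⊥ := by
  have := Fact.mk hr
  obtain ⟨Y₁, hY₁⟩ : ∃ Y₁, Y₁ = Y ⊓ centralizer ((M ⊓ pCoreOf r H : Subgroup G) : Set G) := ⟨_, rfl⟩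
  rw [← hY₁]
  have hMH : M ≤ H := h.hM.trans (fittingOf_le H)
  have hY₁Y : Y₁ ≤ Y := hY₁ ▸ inf_le_left
  have hY₁H : Y₁ ≤ H := by
    rw [hY₁]
    exact ((inf_le_right.trans (centralizer_le (h.zCoreOf_le r))).trans (centralizer_le_normalizer _)).trans
      (h.hNZ r hr hrH)
  have hMY₁ : M ≤ normalizer (Y₁ : Set G) := by
    rw [hY₁]
    apply Cfsg.Agent.Lib.Helper1.le_normalizer_inf hMY
    refine le_trans ?_ (Cfsg.Agent.Lib.Helper16.normalizer_le_normalizer_centralizer _)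
    exact Cfsg.Agent.Lib.Helper1.le_normalizer_inf le_normalizer
      (hMH.trans (Cfsg.Agent.Lib.Helper16.le_normalizer_pCoreOf H))
  have hcop₁ : (Nat.card Y₁).Coprime (Nat.card (fittingOf H)) :=
    Nat.Coprime.of_dvd_left (card_dvd_of_le hY₁Y) hYπ
  have hd : Y₁ ⊓ fittingOf H = ⊥ := inf_eq_bot_of_coprime hcop₁
  have hY₁M : Y₁ ≤ centralizer (M : Set G) :=
    le_centralizer_of_normalize' (hY₁H.trans (Cfsg.Agent.Lib.Helper16.le_normalizer_fOf H)) h.hM hMY₁ hd
  have hMY₁c : M ≤ centralizer (Y₁ : Set G) := le_centralizer_iff.mp hY₁M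
  have hall : ∀ p : ℕ, p.Prime → pCoreOf p H ≤ centralizer (Y₁ : Set G) := by
    intro p hp
    have := Fact.mk hp
    by_cases hpH : pCoreOf p H = ⊥
    · rw [hpH]; exact bot_le
    have hpd : p ∣ Nat.card (fittingOf H) := dvd_of_pCoreOf_ne_bot hpH
    have h2 := Cfsg.Agent.Lib.Helper1.thompson_PxQ p (M ⊓ pCoreOf p H) Y₁
      ((Cfsg.Agent.Lib.Helper16.pCoreOf_isPGroup H).to_le inf_le_right)
      (Nat.Coprime.of_dvd_right hpd hcop₁) (inf_le_left.trans hMY₁c) _ (pCoreOf p H) rfl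
      (Cfsg.Agent.Lib.Helper16.pCoreOf_isPGroup H)
      ((inf_le_left.trans hMH).trans (Cfsg.Agent.Lib.Helper16.le_normalizer_pCoreOf H))
      (hY₁H.trans (Cfsg.Agent.Lib.Helper16.le_normalizer_pCoreOf H))
      (by
        refine le_trans ?_ hMY₁c
        refine le_trans ?_ h.hCM
        exact le_inf (inf_le_left.trans (Cfsg.Agent.Lib.Helper16.pCoreOf_le_fOf p H))
          (pCoreOf_inf_centralizer_le h.hM p))
    exact (commutator_eq_bot_iff_le_centralizer).mp h2
  have hY₁F : Y₁ ≤ centralizer (fittingOf H : Set G) := by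
    rw [le_centralizer_iff]
    exact fOf_le_of_forall hall
  have h3 : Y₁ ≤ fittingOf H :=
    (le_inf (le_inf hY₁H hY₁F) (hY₁Y.trans hYR)).trans (cent_fitting_inf_le h.hR h.hXR)
  rw [eq_bot_iff, ← hd]
  exact le_inf le_rfl h3

theorem BInv.le_pPrimeCore (h : BInv H M R) {Y : Subgroup G} (hYR : Y ≤ R)
    (hYπ : (Nat.card Y).Coprime (Nat.card (fittingOf H))) (hMY : M ≤ normalizer (Y : Set G))
    {p : ℕ} (hp : p.Prime) (hpH : pCoreOf p H ≠ ⊥) :
    Y ≤ (pPrimeCore p (R ⊔ M : Subgroup G)).map (R ⊔ M : Subgroup G).subtype := by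
  have := Fact.mk hp
  obtain ⟨r, hr, hrp, hrH⟩ := h.hF2 p
  have := Fact.mk hr
  have hMH : M ≤ H := h.hM.trans (fittingOf_le H)
  haveI hsol : Group.IsSolvable (R ⊔ M : Subgroup G) :=
    Cfsg.Agent.Lib.Helper8.isSolvable_sup_of_le_normalizer h.hR h.solvable_M h.hMR
  have hZp : IsPGroup p (zCoreOf p H) := (Cfsg.Agent.Lib.Helper16.pCoreOf_isPGroup H).to_le inf_le_left
  have h1 : pCoreOf r H ⊓ (R ⊔ M) ≤ (pPrimeCore p (R ⊔ M : Subgroup G)).map (R ⊔ M : Subgroup G).subtype := by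
    apply goldschmidt_rel p (R ⊔ M) hZp (((h.zCoreOf_le p).trans inf_le_left).trans le_sup_right) inf_le_right
    · exact (inf_le_left.trans (Cfsg.Agent.Lib.Helper16.pCoreOf_le H)).trans (le_normalizer_zCoreOf p H)
    · apply Cfsg.Agent.Lib.Helper1.le_normalizer_inf
      · exact (inf_le_right.trans (h.hNZ p hp hpH)).trans (Cfsg.Agent.Lib.Helper16.le_normalizer_pCoreOf H)
      · exact inf_le_left.trans le_normalizer
    · exact coprime_card_of_isPGroup (Ne.symm hrp) ((Cfsg.Agent.Lib.Helper16.pCoreOf_isPGroup H).to_le inf_le_left)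
  have hMr : M ⊓ pCoreOf r H ≤ (pPrimeCore p (R ⊔ M : Subgroup G)).map (R ⊔ M : Subgroup G).subtype :=
    (le_inf inf_le_right (inf_le_left.trans le_sup_right)).trans h1
  have hMrp : IsPGroup r (M ⊓ pCoreOf r H : Subgroup G) :=
    (Cfsg.Agent.Lib.Helper16.pCoreOf_isPGroup H).to_le inf_le_right
  have hMrs : Group.IsSolvable (M ⊓ pCoreOf r H : Subgroup G) := by
    haveI := hMrp.isNilpotent
    infer_instance
  have h2 := Cfsg.Agent.Lib.Helper1.coprime_commutator_sup_centralizer (M ⊓ pCoreOf r H) Y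
    (inf_le_left.trans hMY)
    (Nat.Coprime.of_dvd_left (card_dvd_of_le (inf_le_left.trans h.hM)) hYπ.symm) (Or.inl hMrs)
  rw [h.cent_eq_bot hYR hYπ hMY hr hrH, sup_bot_eq] at h2
  rw [← h2, commutator_comm]
  haveI hn : (pPrimeCore p (R ⊔ M : Subgroup G)).Normal := (Cfsg.Agent.Lib.Helper1.pPrimeCore_spec p).1
  refine (commutator_mono hMr le_rfl).trans (Cfsg.Agent.Lib.Helper1.commutator_le_of_le_normalizer ?_)
  exact (hYR.trans le_sup_left).trans (Cfsg.Agent.Lib.Helper9.le_normalizer_map_subtype _ _)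

theorem le_normalizer_iInf {ι : Sort*} {K : Subgroup G} {A : ι → Subgroup G}
    (h : ∀ i, K ≤ normalizer (A i : Set G)) : K ≤ normalizer ((⨅ i, A i : Subgroup G) : Set G) := by
  intro k hk
  rw [mem_normalizer_iff]
  intro x
  simp only [mem_iInf]
  exact forall_congr' fun i => mem_normalizer_iff.mp (h i hk) x

/-- **Bender's lemma**: invariant `π(F)'`-subgroups of `R` lie in `O_{π(F)'}(R)`. -/
theorem BInv.le_piCoreOf (h : BInv H M R) {Y : Subgroup G} (hYR : Y ≤ R)
    (hYπ : (Nat.card Y).Coprime (Nat.card (fittingOf H))) (hMY : M ≤ normalizer (Y : Set G)) :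
    Y ≤ piCoreOf (primesNotDvd (Nat.card (fittingOf H))) R := by
  obtain ⟨W, hW⟩ : ∃ W : Subgroup G, W = ⨅ p : {p : ℕ // p.Prime ∧ pCoreOf p H ≠ ⊥},
    (pPrimeCore (p : ℕ) (R ⊔ M : Subgroup G)).map (R ⊔ M : Subgroup G).subtype := ⟨_, rfl⟩
  have hYW : Y ≤ W := by
    rw [hW]
    exact le_iInf fun p => h.le_pPrimeCore hYR hYπ hMY p.2.1 p.2.2
  refine (le_inf hYW hYR).trans ?_
  apply Cfsg.Agent.Lib.Helper29.le_piCoreOf inf_le_right
  · apply Cfsg.Agent.Lib.Helper1.le_normalizer_inf _ le_normalizer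
    rw [hW]
    apply le_normalizer_iInf
    intro p
    have := Fact.mk p.2.1
    haveI hn : (pPrimeCore (p : ℕ) (R ⊔ M : Subgroup G)).Normal := (Cfsg.Agent.Lib.Helper1.pPrimeCore_spec _).1
    exact le_sup_left.trans (Cfsg.Agent.Lib.Helper9.le_normalizer_map_subtype _ _)
  · intro s hs hsd
    refine ⟨hs, fun hsF => ?_⟩
    have := Fact.mk hs
    have hsH : pCoreOf s H ≠ ⊥ := pCoreOf_ne_bot_of_dvd hsF
    have h1 : W ⊓ R ≤ (pPrimeCore s (R ⊔ M : Subgroup G)).map (R ⊔ M : Subgroup G).subtype := by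
      refine inf_le_left.trans ?_
      rw [hW]
      exact iInf_le _ (⟨s, hs, hsH⟩ : {p : ℕ // p.Prime ∧ pCoreOf p H ≠ ⊥})
    have h2 := hsd.trans (card_dvd_of_le h1)
    rw [Subgroup.card_map_of_injective (Subgroup.subtype_injective _)] at h2
    exact (Nat.Prime.coprime_iff_not_dvd hs).mp
      (Cfsg.Agent.Lib.Helper1.pPrimeCore_spec (G := (R ⊔ M : Subgroup G)) s).2.symm h2

theorem BInv.cent_M_eq_bot (h : BInv H M R) {Y : Subgroup G} (hYR : Y ≤ R)
    (hYπ : (Nat.card Y).Coprime (Nat.card (fittingOf H))) (hMY : M ≤ normalizer (Y : Set G)) :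
    Y ⊓ centralizer (M : Set G) = ⊥ := by
  obtain ⟨r, hr, -, hrH⟩ := h.hF2 0
  rw [eq_bot_iff, ← h.cent_eq_bot hYR hYπ hMY hr hrH]
  exact inf_le_inf_left _ (centralizer_le inf_le_left)

end Cfsg.Agent.Lib.Helper29
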