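import Cfsg.Agent.Lib.Helper16.Bender
import Cfsg.Agent.Lib.Helper16.SPE
import Cfsg.Agent.Lib.Helper1.Nilp
import Cfsg.Agent.Lib.Helper29.TransBG

/-! Bender's method in a minimal simple group of odd order: two maximal subgroups each containing the
Fitting subgroup of the other. -/

set_option autoImplicit false
set_option linter.unusedSectionVars false
open Cfsg Subgroup
open Cfsg.Agent.Lib.Helper16 (FsOf FOf EOf BHalf CharP)
open scoped commutatorElement

namespace Cfsg.Agent.Lib.Helper29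

variable {G : Type*} [Group G]

theorem le_centralizer_of_normalize {A B : Subgroup G} (hAB : A ≤ normalizer (B : Set G))
    (hBA : B ≤ normalizer (A : Set G)) (hd : A ⊓ B = ⊥) : A ≤ centralizer (B : Set G) := by
  intro a ha
  rw [mem_centralizer_iff]
  intro b hb
  have h1 : a * b * a⁻¹ ∈ B := (mem_normalizer_iff.mp (hAB ha) b).mp hb
  have h2 : b * a⁻¹ * b⁻¹ ∈ A := (mem_normalizer_iff.mp (hBA hb) a⁻¹).mp (A.inv_mem ha)
  have h3 : a * b * a⁻¹ * b⁻¹ ∈ A ⊓ B := by
    refine mem_inf.mpr ⟨?_, B.mul_mem h1 (B.inv_mem hb)⟩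
    have := A.mul_mem ha h2
    simpa [mul_assoc] using this
  rw [hd, mem_bot] at h3
  have : a * b = b * a := by
    have h4 : a * b * a⁻¹ * b⁻¹ * (b * a) = b * a := by rw [h3, one_mul]
    rw [← h4]; group
  exact this.symm

theorem inf_eq_bot_of_isPGroup {q r : ℕ} [Fact q.Prime] [Fact r.Prime] (hqr : q ≠ r) {A B : Subgroup G}
    (hA : IsPGroup q A) (hB : IsPGroup r B) : A ⊓ B = ⊥ :=
  disjoint_iff.mp (IsPGroup.disjoint_of_ne q r hqr A B hA hB)

section fin
variable [Finite G]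

theorem coprime_card_of_isPGroup {q r : ℕ} [hq : Fact q.Prime] [hr : Fact r.Prime] (hqr : q ≠ r) {A : Subgroup G}
    (hA : IsPGroup r A) : (Nat.card A).Coprime q := by
  obtain ⟨n, hn⟩ := IsPGroup.iff_card.mp hA
  rw [hn]
  exact Nat.Coprime.pow_left _ ((Nat.coprime_primes hr.out hq.out).mpr (Ne.symm hqr))

/-- the `A × B` step of Bender's method. -/
theorem bender_AB {q r : ℕ} [Fact q.Prime] [Fact r.Prime] (hqr : q ≠ r) {U B A W : Subgroup G}
    (hU : IsPGroup q U) (hB : IsPGroup q B) (hA : IsPGroup r A)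
    (hBU : B ≤ normalizer (U : Set G)) (hAU : A ≤ normalizer (U : Set G))
    (hBA : B ≤ centralizer (A : Set G)) (hW : U ⊓ centralizer (B : Set G) ≤ W)
    (hWA : W ≤ normalizer (A : Set G)) : U ≤ centralizer (A : Set G) := by
  have hAB : A ≤ centralizer (B : Set G) := le_centralizer_iff.mp hBA
  have h1 : U ⊓ centralizer (B : Set G) ≤ centralizer (A : Set G) := by
    apply le_centralizer_of_normalize (hW.trans hWA)
    · exact Cfsg.Agent.Lib.Helper1.le_normalizer_inf hAU (hAB.trans le_normalizer)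
    · exact inf_eq_bot_of_isPGroup hqr (hU.to_le inf_le_left) hA
  have h2 := Cfsg.Agent.Lib.Helper1.thompson_PxQ q B A hB (coprime_card_of_isPGroup hqr hA) hBA _ U rfl hU hBU hAU h1
  exact (commutator_eq_bot_iff_le_centralizer).mp h2

theorem pCoreOf_comm {q r : ℕ} [Fact q.Prime] [Fact r.Prime] (hqr : q ≠ r) (H : Subgroup G) :
    pCoreOf q H ≤ centralizer (pCoreOf r H : Set G) :=
  le_centralizer_of_normalize
    ((Cfsg.Agent.Lib.Helper16.pCoreOf_le H).trans (Cfsg.Agent.Lib.Helper16.le_normalizer_pCoreOf H))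
    ((Cfsg.Agent.Lib.Helper16.pCoreOf_le H).trans (Cfsg.Agent.Lib.Helper16.le_normalizer_pCoreOf H))
    (inf_eq_bot_of_isPGroup hqr (Cfsg.Agent.Lib.Helper16.pCoreOf_isPGroup H)
      (Cfsg.Agent.Lib.Helper16.pCoreOf_isPGroup H))

theorem pCoreOf_ne_bot_of_dvd {q : ℕ} [hq : Fact q.Prime] {H : Subgroup G} (h : q ∣ Nat.card (fittingOf H)) :
    pCoreOf q H ≠ ⊥ := by
  obtain ⟨x, hx⟩ := exists_prime_orderOf_dvd_card' q h
  intro hb
  have h1 : zpowers (x : G) ≤ pCoreOf q H := by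
    apply Cfsg.Agent.Lib.Helper16.le_pCoreOf_of_le_fOf
    · apply IsPGroup.of_card (n := 1)
      rw [Nat.card_zpowers, Subgroup.orderOf_coe, hx, pow_one]
    · rw [zpowers_le]; exact x.2
  rw [hb, le_bot_iff, zpowers_eq_bot] at h1
  have h2 : x = 1 := Subtype.ext h1
  rw [h2, orderOf_one] at hx
  exact hq.out.one_lt.ne hx

theorem dvd_of_pCoreOf_ne_bot {q : ℕ} [hq : Fact q.Prime] {H : Subgroup G} (h : pCoreOf q H ≠ ⊥) :
    q ∣ Nat.card (fittingOf H) := by
  have h1 : Nat.card (pCoreOf q H) ∣ Nat.card (fittingOf H) :=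
    card_dvd_of_le (Cfsg.Agent.Lib.Helper16.pCoreOf_le_fOf q H)
  obtain ⟨n, hn⟩ := IsPGroup.iff_card.mp (Cfsg.Agent.Lib.Helper16.pCoreOf_isPGroup (p := q) H)
  rcases n with _ | n
  · rw [pow_zero] at hn
    exact absurd ((card_eq_one).mp hn) h
  · rw [hn] at h1
    exact (dvd_pow_self q (Nat.succ_ne_zero n)).trans h1

theorem fsOf_eq_fOf_of_solvable (H : Subgroup G) [hs : Group.IsSolvable H] : FsOf H = FOf H := by
  have h1 : layer ↥H = ⊥ := by
    rw [layer, sSup_eq_bot]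
    intro K hK
    exfalso
    apply Cfsg.Agent.Lib.Helper9.comp_not_solvable hK
    exact Group.isSolvable_of_isSolvable_injective K.subtype_injective
  rw [FsOf, generalizedFittingSubgroup, h1, bot_sup_eq]

theorem ne_top_of_coatom {H : Subgroup G} (hH : IsCoatom H) : H ≠ ⊤ := hH.1

theorem normalizer_eq_of_coatom (hG : IsMinSimpleOddOrder G) {H A : Subgroup G} (hH : IsCoatom H)
    (hA : A ≠ ⊥) (hAH : A ≤ H) (hn : H ≤ normalizer (A : Set G)) : normalizer (A : Set G) = H := by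
  have := hG.2.1
  have h1 : normalizer (A : Set G) ≠ ⊤ :=
    normalizer_ne_top_of_simple hA (fun h => hH.1 (top_le_iff.mp (h ▸ hAH)))
  by_contra hne
  exact h1 (hH.2 _ (lt_of_le_of_ne hn (Ne.symm hne)))

theorem solvable_of_coatom (hG : IsMinSimpleOddOrder G) {H : Subgroup G} (hH : IsCoatom H) :
    Group.IsSolvable H := hG.2.2.2 H hH.1

theorem bHalf_of_coatom (hG : IsMinSimpleOddOrder G) {H L : Subgroup G} (hH : IsCoatom H)
    (h : fittingOf H ≤ L) : BHalf H L := by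
  have := solvable_of_coatom hG hH
  refine ⟨fun A hA hAle hn => ?_, ?_⟩
  · rw [normalizer_eq_of_coatom hG hH hA (hAle.trans inf_le_left) hn]
    exact inf_le_right
  · rw [fsOf_eq_fOf_of_solvable]; exact h

/-- two distinct maximal subgroups each containing the Fitting subgroup of the other have Fitting subgroups
of prime power order for the same prime. -/
theorem bender_odd (hG : IsMinSimpleOddOrder G) {H L : Subgroup G} (hH : IsCoatom H) (hL : IsCoatom L)
    (h1 : fittingOf H ≤ L) (h2 : fittingOf L ≤ H) (hne : H ≠ L) :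
    ∃ p : ℕ, p.Prime ∧ ∀ r : ℕ, r.Prime → r ≠ p → pCoreOf r H = ⊥ ∧ pCoreOf r L = ⊥ := by
  obtain ⟨p, hp, hc1, hc2, -⟩ := Cfsg.Agent.Lib.Helper16.bender_primitive_pair
    (bHalf_of_coatom hG hH h1) (bHalf_of_coatom hG hL h2) hne
  refine ⟨p, hp, fun r hr hrp => ?_⟩
  have := Fact.mk hp
  have := Fact.mk hr
  have key : ∀ X : Subgroup G, CharP p X → pCoreOf r X = ⊥ := by
    intro X hX
    have h3 : pCoreOf r X ≤ pCoreOf p X :=
      (le_inf (Cfsg.Agent.Lib.Helper16.pCoreOf_le X) (pCoreOf_comm hrp X)).trans hX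
    have h4 := inf_eq_bot_of_isPGroup hrp (Cfsg.Agent.Lib.Helper16.pCoreOf_isPGroup (p := r) X)
      (Cfsg.Agent.Lib.Helper16.pCoreOf_isPGroup (p := p) X)
    rw [eq_bot_iff, ← h4]
    exact le_inf le_rfl h3
  exact ⟨key H hc1, key L hc2⟩

/-- the centre of `O_r(H)`. -/
abbrev zCoreOf (r : ℕ) (H : Subgroup G) : Subgroup G := pCoreOf r H ⊓ centralizer (pCoreOf r H : Set G)

theorem le_normalizer_zCoreOf (r : ℕ) [Fact r.Prime] (H : Subgroup G) : H ≤ normalizer (zCoreOf r H : Set G) :=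
  Cfsg.Agent.Lib.Helper1.le_normalizer_inf (Cfsg.Agent.Lib.Helper16.le_normalizer_pCoreOf H)
    ((Cfsg.Agent.Lib.Helper16.le_normalizer_pCoreOf H).trans
      (Cfsg.Agent.Lib.Helper16.normalizer_le_normalizer_centralizer _))

theorem zCoreOf_le_center_fitting (r : ℕ) [Fact r.Prime] (H : Subgroup G) :
    zCoreOf r H ≤ fittingOf H ⊓ centralizer (fittingOf H : Set G) := by
  refine le_inf (inf_le_left.trans (Cfsg.Agent.Lib.Helper16.pCoreOf_le_fOf r H)) ?_
  rw [le_centralizer_iff]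
  show FOf H ≤ _
  rw [Cfsg.Agent.Lib.Helper16.fOf_eq]
  apply iSup_le
  intro q
  have : Fact (q : ℕ).Prime := ⟨q.2⟩
  by_cases hq : (q : ℕ) = r
  · rw [hq, le_centralizer_iff]; exact inf_le_right
  · exact (pCoreOf_comm hq H).trans (centralizer_le inf_le_left)

theorem fOf_le_of_forall {H X : Subgroup G} (h : ∀ q : ℕ, q.Prime → pCoreOf q H ≤ X) : fittingOf H ≤ X := by
  show FOf H ≤ _
  rw [Cfsg.Agent.Lib.Helper16.fOf_eq]
  exact iSup_le fun q => h q q.2

/-- Bender: a maximal subgroup `L` containing the centres of all `O_r(H)`, with `π(F(L)) ⊆ π(F(H))` and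
`F(H)` not of prime power order, is `H`. -/
theorem bender_center_uniqueness (hG : IsMinSimpleOddOrder G) {H L : Subgroup G} (hH : IsCoatom H)
    (hL : IsCoatom L) (hF2 : ∀ q : ℕ, ∃ r : ℕ, r.Prime ∧ r ≠ q ∧ pCoreOf r H ≠ ⊥)
    (hZ : ∀ r : ℕ, r.Prime → zCoreOf r H ≤ L)
    (hπ : ∀ q : ℕ, q.Prime → pCoreOf q H = ⊥ → pCoreOf q L = ⊥) : L = H := by
  have hsL := solvable_of_coatom hG hL
  have hZne : ∀ r : ℕ, r.Prime → pCoreOf r H ≠ ⊥ → zCoreOf r H ≠ ⊥ := by
    intro r hr h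
    have := Fact.mk hr
    exact Cfsg.Agent.Lib.Helper16.center_ne_bot (Cfsg.Agent.Lib.Helper16.pCoreOf_isPGroup H) h
  have hZH : ∀ r : ℕ, zCoreOf r H ≤ H := fun r => inf_le_left.trans (Subgroup.map_subtype_le _)
  have hNZ : ∀ r : ℕ, r.Prime → pCoreOf r H ≠ ⊥ → normalizer (zCoreOf r H : Set G) = H := by
    intro r hr h
    have := Fact.mk hr
    exact normalizer_eq_of_coatom hG hH (hZne r hr h) (hZH r) (le_normalizer_zCoreOf r H)
  have hZp : ∀ r : ℕ, [Fact r.Prime] → IsPGroup r (zCoreOf r H) := fun r _ =>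
    (Cfsg.Agent.Lib.Helper16.pCoreOf_isPGroup H).to_le inf_le_left
  -- step 2
  have s2 : ∀ q r : ℕ, q.Prime → r.Prime → q ≠ r → pCoreOf q L ≤ centralizer (zCoreOf r H : Set G) := by
    intro q r hq hr hqr
    have := Fact.mk hq
    have := Fact.mk hr
    by_cases hqH : pCoreOf q H = ⊥
    · rw [hπ q hq hqH]; exact bot_le
    apply bender_AB hqr (B := zCoreOf q H) (W := H) (Cfsg.Agent.Lib.Helper16.pCoreOf_isPGroup L) (hZp q) (hZp r)
      ((hZ q hq).trans (Cfsg.Agent.Lib.Helper16.le_normalizer_pCoreOf L))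
      ((hZ r hr).trans (Cfsg.Agent.Lib.Helper16.le_normalizer_pCoreOf L))
    · exact (inf_le_left.trans (pCoreOf_comm hqr H)).trans (centralizer_le inf_le_left)
    · exact (inf_le_right.trans (centralizer_le_normalizer _)).trans (hNZ q hq hqH).le
    · exact le_normalizer_zCoreOf r H
  -- step 3'
  have s3 : ∀ r : ℕ, r.Prime → pCoreOf r H ≠ ⊥ → pCoreOf r L ≠ ⊥ := by
    intro r hr hrH hrL
    have := Fact.mk hr
    apply hZne r hr hrH
    rw [eq_bot_iff, ← hrL]
    apply Cfsg.Agent.Lib.Helper16.le_pCoreOf_of_le_fOf (hZp r)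
    rw [← fsOf_eq_fOf_of_solvable]
    refine (le_inf (hZ r hr) ?_).trans (Cfsg.Agent.Lib.Helper16.inf_centralizer_fsOf_le L)
    rw [fsOf_eq_fOf_of_solvable, le_centralizer_iff, Cfsg.Agent.Lib.Helper16.fOf_eq]
    apply iSup_le
    intro q
    by_cases hq : (q : ℕ) = r
    · rw [hq, hrL]; exact bot_le
    · exact s2 q r q.2 hr hq
  -- step 3''
  have s4 : ∀ q : ℕ, q.Prime → pCoreOf q L ≤ H := by
    intro q hq
    obtain ⟨r, hr, hrq, hrH⟩ := hF2 q
    rw [← hNZ r hr hrH]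
    exact (s2 q r hq hr (Ne.symm hrq)).trans (centralizer_le_normalizer _)
  have hNL : ∀ r : ℕ, r.Prime → pCoreOf r H ≠ ⊥ → normalizer (pCoreOf r L : Set G) = L := by
    intro r hr h
    have := Fact.mk hr
    exact normalizer_eq_of_coatom hG hL (s3 r hr h) (Cfsg.Agent.Lib.Helper16.pCoreOf_le L)
      (Cfsg.Agent.Lib.Helper16.le_normalizer_pCoreOf L)
  -- step 4'
  have s5 : ∀ q : ℕ, q.Prime → pCoreOf q H ≤ L := by
    intro q hq
    have := Fact.mk hq
    by_cases hqH : pCoreOf q H = ⊥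
    · rw [hqH]; exact bot_le
    obtain ⟨r, hr, hrq, hrH⟩ := hF2 q
    have := Fact.mk hr
    rw [← hNL r hr hrH]
    refine le_trans ?_ (centralizer_le_normalizer _)
    apply bender_AB (Ne.symm hrq) (B := pCoreOf q L) (W := L) (Cfsg.Agent.Lib.Helper16.pCoreOf_isPGroup H)
      (Cfsg.Agent.Lib.Helper16.pCoreOf_isPGroup L) (Cfsg.Agent.Lib.Helper16.pCoreOf_isPGroup L)
      ((s4 q hq).trans (Cfsg.Agent.Lib.Helper16.le_normalizer_pCoreOf H))
      ((s4 r hr).trans (Cfsg.Agent.Lib.Helper16.le_normalizer_pCoreOf H))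
      (pCoreOf_comm (Ne.symm hrq) L)
    · exact (inf_le_right.trans (centralizer_le_normalizer _)).trans (hNL q hq hqH).le
    · exact Cfsg.Agent.Lib.Helper16.le_normalizer_pCoreOf L
  by_contra hne
  obtain ⟨p, hp, hb⟩ := bender_odd hG hH hL (fOf_le_of_forall s5) (fOf_le_of_forall s4) (Ne.symm hne)
  obtain ⟨r, hr, hrp, hrH⟩ := hF2 p
  exact hrH (hb r hr hrp).1

end fin

end Cfsg.Agent.Lib.Helper29
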