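import Mathlib

set_option autoImplicit false

namespace Cfsg.Agent.Lib.Helper29

variable {G : Type*} [Group G]

theorem mem_conj {A : Subgroup G} {g x : G} :
    x ∈ A.map (MulAut.conj g).toMonoidHom ↔ g⁻¹ * x * g ∈ A := by
  constructor
  · rintro ⟨y, hy, rfl⟩
    have : g⁻¹ * (MulAut.conj g).toMonoidHom y * g = y := by
      simp only [MulEquiv.coe_toMonoidHom, MulAut.conj_apply]; group
    rw [this]; exact hy
  · intro h
    refine ⟨_, h, ?_⟩
    simp only [MulEquiv.coe_toMonoidHom, MulAut.conj_apply]; group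

theorem conj_mem_conj {A : Subgroup G} {x : G} (g : G) (hx : x ∈ A) :
    g * x * g⁻¹ ∈ A.map (MulAut.conj g).toMonoidHom := ⟨x, hx, rfl⟩

theorem conj_conj (A : Subgroup G) (g h : G) :
    (A.map (MulAut.conj g).toMonoidHom).map (MulAut.conj h).toMonoidHom
      = A.map (MulAut.conj (h * g)).toMonoidHom := by
  ext x
  simp only [mem_conj]
  have : g⁻¹ * (h⁻¹ * x * h) * g = (h * g)⁻¹ * x * (h * g) := by group
  rw [this]

theorem conj_one (A : Subgroup G) : A.map (MulAut.conj (1 : G)).toMonoidHom = A := by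
  ext x
  simp [mem_conj]

theorem card_conj (A : Subgroup G) (g : G) :
    Nat.card (A.map (MulAut.conj g).toMonoidHom) = Nat.card A :=
  Nat.card_congr ((MulAut.conj g).subgroupMap A).symm.toEquiv

theorem conj_inf (A B : Subgroup G) (g : G) :
    (A ⊓ B).map (MulAut.conj g).toMonoidHom
      = A.map (MulAut.conj g).toMonoidHom ⊓ B.map (MulAut.conj g).toMonoidHom :=
  Subgroup.map_inf A B _ (MulAut.conj g).injective

theorem conj_eq_iff_mem_normalizer {A : Subgroup G} [Finite A] {g : G} :
    A.map (MulAut.conj g).toMonoidHom = A ↔ g ∈ Subgroup.normalizer (A : Set G) := by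
  constructor
  · intro h
    rw [Subgroup.mem_normalizer_iff]
    intro x
    constructor
    · intro hx; rw [← h]; exact conj_mem_conj g hx
    · intro hx
      rw [← h, mem_conj] at hx
      have : g⁻¹ * (g * x * g⁻¹) * g = x := by group
      rwa [this] at hx
  · intro h
    rw [Subgroup.mem_normalizer_iff] at h
    ext x
    rw [mem_conj, h (g⁻¹ * x * g)]
    have : g * (g⁻¹ * x * g) * g⁻¹ = x := by group
    rw [this]

/-- The TI property passes to conjugates. -/
theorem ti_conj {A : Subgroup G}
    (hti : ∀ h : G, A.map (MulAut.conj h).toMonoidHom = A ∨ A.map (MulAut.conj h).toMonoidHom ⊓ A = ⊥)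
    (g h : G) :
    (A.map (MulAut.conj g).toMonoidHom).map (MulAut.conj h).toMonoidHom = A.map (MulAut.conj g).toMonoidHom ∨
      (A.map (MulAut.conj g).toMonoidHom).map (MulAut.conj h).toMonoidHom ⊓ A.map (MulAut.conj g).toMonoidHom = ⊥ := by
  have e : (A.map (MulAut.conj g).toMonoidHom).map (MulAut.conj h).toMonoidHom
      = (A.map (MulAut.conj (g⁻¹ * h * g)).toMonoidHom).map (MulAut.conj g).toMonoidHom := by
    rw [conj_conj, conj_conj]
    congr 3
    group
  rw [e]
  rcases hti (g⁻¹ * h * g) with h1 | h1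
  · left; rw [h1]
  · right; rw [← conj_inf, h1, Subgroup.map_bot]

end Cfsg.Agent.Lib.Helper29
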