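import Mathlib

/-! Groups of odd order acting on a vector space of dimension at most two. -/

set_option autoImplicit false
set_option linter.unusedSectionVars false

namespace Cfsg.Agent.Lib.Helper29

open Module

theorem conj_eq_of_commute {F V : Type*} [Field F] [AddCommGroup V] [Module F V] [FiniteDimensional F V] {p : ℕ}
    [hp : Fact p.Prime] [CharP F p] (hdim : finrank F V ≤ 2) (f : End F V) (Y : (End F V)ˣ)
    {n m : ℕ} (hn : Odd n) (hnp : n.Coprime p) (hYn : Y ^ n = 1) (hmp : m.Coprime p) (hfm : f ^ m = 1)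
    (hcomm : Commute ((Y : End F V) * f * ((Y⁻¹ : (End F V)ˣ) : End F V)) f) :
    (Y : End F V) * f * ((Y⁻¹ : (End F V)ˣ) : End F V) = f := by
  by_cases h : ∀ v, ¬ LinearIndependent F ![v, f v]
  · obtain ⟨a, rfl⟩ := LinearMap.exists_eq_smul_id_of_forall_notLinearIndependent h
    simp
  push Not at h
  obtain ⟨v, hv⟩ := h
  have hpair := LinearIndependent.pair_iff.mp hv
  have hfin : finrank F V = 2 := by
    have := hv.fintype_card_le_finrank
    simp at this
    omega
  have hspan : ∀ w, ∃ a b : F, a • v + b • f v = w := by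
    intro w
    have h1 := hv.span_eq_top_of_card_eq_finrank' (by simp [hfin])
    have h2 : w ∈ Submodule.span F (Set.range ![v, f v]) := h1 ▸ Submodule.mem_top
    have h3 : Set.range ![v, f v] = {v, f v} := by
      ext x
      simp only [Set.mem_range, Fin.exists_fin_two, Matrix.cons_val_zero, Matrix.cons_val_one,
        Set.mem_insert_iff, Set.mem_singleton_iff]
      constructor
      · rintro (h | h)
        · exact Or.inl h.symm
        · exact Or.inr h.symm
      · rintro (h | h)
        · exact Or.inl h.symm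
        · exact Or.inr h.symm
    rw [h3, Submodule.mem_span_pair] at h2
    exact h2
  have huniq : ∀ a b : F, a • (1 : End F V) + b • f = 0 → a = 0 ∧ b = 0 := by
    intro a b hab
    apply hpair
    have := congrArg (fun g : End F V => g v) hab
    simpa using this
  have hcent : ∀ g : End F V, Commute g f → ∃ α β : F, g = α • (1 : End F V) + β • f := by
    intro g hg
    obtain ⟨α, β, hαβ⟩ := hspan (g v)
    refine ⟨α, β, LinearMap.ext fun w => ?_⟩
    obtain ⟨a, b, rfl⟩ := hspan w
    have hfv : g (f v) = f (g v) := by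
      have := congrArg (fun k : End F V => k v) hg.eq
      simpa using this
    simp only [map_add, map_smul, hfv, ← hαβ, LinearMap.add_apply, LinearMap.smul_apply, End.one_apply]
    try module
  obtain ⟨c, hc⟩ : ∃ c : End F V → End F V, ∀ g, c g = (Y : End F V) * g * ((Y⁻¹ : (End F V)ˣ) : End F V) :=
    ⟨_, fun _ => rfl⟩
  have c_add : ∀ g g', c (g + g') = c g + c g' := by
    intro g g'; simp only [hc, mul_add, add_mul]
  have c_smul : ∀ (a : F) g, c (a • g) = a • c g := by
    intro a g; simp only [hc, mul_smul_comm, smul_mul_assoc]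
  have c_one : c 1 = 1 := by simp [hc]
  have c_mul : ∀ g g', c (g * g') = c g * c g' := by
    intro g g'
    simp only [hc, mul_assoc, Units.inv_mul_cancel_left]
  have c_iter : ∀ (k : ℕ) g, c^[k] g = ((Y ^ k : (End F V)ˣ) : End F V) * g * (((Y ^ k)⁻¹ : (End F V)ˣ) : End F V) := by
    intro k
    induction k with
    | zero => intro g; simp
    | succ k ih =>
      intro g
      rw [Function.iterate_succ_apply', ih, hc, pow_succ', mul_inv_rev]
      simp only [Units.val_mul, mul_assoc]
  have c_n : ∀ g, c^[n] g = g := by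
    intro g; rw [c_iter, hYn]; simp
  rw [← hc] at hcomm ⊢
  obtain ⟨α, β, hg⟩ := hcent _ hcomm
  have hnF : (n : F) ≠ 0 := by
    intro h0
    rw [CharP.cast_eq_zero_iff F p n] at h0
    have := Nat.Coprime.eq_one_of_dvd hnp.symm h0
    exact hp.out.one_lt.ne' this
  by_cases hβ : β = 1
  · have hit : ∀ k : ℕ, c^[k] f = ((k : F) * α) • (1 : End F V) + f := by
      intro k
      induction k with
      | zero => simp
      | succ k ih =>
        rw [Function.iterate_succ_apply', ih, c_add, c_smul, c_one, hg, hβ]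
        push_cast
        module
    have h1 := hit n
    rw [c_n] at h1
    have h2 : ((n : F) * α) • (1 : End F V) + (0 : F) • f = 0 := by
      rw [zero_smul, add_zero]
      have : f = ((n : F) * α) • (1 : End F V) + f := h1
      exact (add_eq_right.mp this.symm)
    have h3 := (huniq _ _ h2).1
    have hα : α = 0 := (mul_eq_zero.mp h3).resolve_left hnF
    rw [hg, hα, hβ]; simp
  · exfalso
    have hβ1 : β - 1 ≠ 0 := sub_ne_zero.mpr hβ
    obtain ⟨s, hs⟩ : ∃ s, s = α / (β - 1) := ⟨_, rfl⟩
    have hsα : α + s = β * s := by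
      rw [hs]; field_simp; ring
    obtain ⟨f₀, hf₀⟩ : ∃ f₀, f₀ = f + s • (1 : End F V) := ⟨_, rfl⟩
    have hcf₀ : c f₀ = β • f₀ := by
      rw [hf₀, c_add, c_smul, c_one, hg, smul_add, smul_smul, ← hsα]
      module
    have hf₀ne : f₀ ≠ 0 := by
      intro h0
      have h2 : s • (1 : End F V) + (1 : F) • f = 0 := by rw [one_smul, add_comm, ← hf₀, h0]
      exact one_ne_zero (huniq _ _ h2).2
    have hit : ∀ k : ℕ, c^[k] f₀ = (β ^ k) • f₀ := by
      intro k
      induction k with
      | zero => simp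
      | succ k ih =>
        rw [Function.iterate_succ_apply', ih, c_smul, hcf₀, smul_smul, pow_succ]
    have hβn : β ^ n = 1 := by
      have h1 := hit n
      rw [c_n] at h1
      have h2 : (β ^ n - 1) • f₀ = 0 := by rw [sub_smul, one_smul, ← h1, sub_self]
      rcases smul_eq_zero.mp h2 with h3 | h3
      · exact sub_eq_zero.mp h3
      · exact absurd h3 hf₀ne
    have hβ0 : β ≠ 0 := by
      intro h0
      rw [h0, zero_pow (by rcases hn with ⟨k, rfl⟩; omega)] at hβn
      exact zero_ne_one hβn
    have hβ2 : β ^ 2 ≠ 1 := by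
      intro h2
      obtain ⟨k, rfl⟩ := hn
      rw [pow_succ, pow_mul, h2, one_pow, one_mul] at hβn
      exact hβ hβn
    have hcf : Commute (f₀ * f₀) f := by
      have h1 : Commute f₀ f := by
        rw [hf₀]
        exact (Commute.refl f).add_left ((Commute.one_left f).smul_left s)
      exact h1.mul_left h1
    obtain ⟨γ, ε, hγε⟩ := hcent _ hcf
    have h4 : c (f₀ * f₀) = (β ^ 2) • (f₀ * f₀) := by
      rw [c_mul, hcf₀, smul_mul_smul_comm, sq]
    rw [hγε, c_add, c_smul, c_smul, c_one, hg] at h4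
    have h5 : (γ + ε * α - β ^ 2 * γ) • (1 : End F V) + (ε * β - β ^ 2 * ε) • f = 0 := by
      have h6 : γ • (1 : End F V) + ε • (α • (1 : End F V) + β • f) - β ^ 2 • (γ • (1 : End F V) + ε • f) = 0 :=
        sub_eq_zero.mpr h4
      rw [← h6]
      module
    obtain ⟨h7, h8⟩ := huniq _ _ h5
    have hε : ε = 0 := by
      have h9 : ε * (β * (1 - β)) = 0 := by rw [← h8]; ring
      rcases mul_eq_zero.mp h9 with h | h
      · exact h
      · rcases mul_eq_zero.mp h with h | h
        · exact absurd h hβ0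
        · exact absurd (sub_eq_zero.mp h).symm hβ
    have hγ : γ = 0 := by
      rw [hε] at h7
      have h9 : γ * (1 - β ^ 2) = 0 := by rw [← h7]; ring
      rcases mul_eq_zero.mp h9 with h | h
      · exact h
      · exact absurd (sub_eq_zero.mp h).symm hβ2
    have hsq : f₀ * f₀ = 0 := by rw [hγε, hγ, hε]; simp
    -- `f ^ p` is a scalar
    haveI : Nontrivial (End F V) := ⟨⟨f₀, 0, hf₀ne⟩⟩
    haveI : CharP (End F V) p := charP_of_injective_algebraMap (algebraMap F (End F V)).injective p
    have hfp : f ^ p = ((-s) ^ p) • (1 : End F V) := by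
      have h1 : f = f₀ + (-s) • (1 : End F V) := by rw [hf₀]; module
      have h2 : Commute f₀ ((-s) • (1 : End F V)) := (Commute.one_right f₀).smul_right _
      rw [h1, add_pow_char_of_commute p h2, smul_pow, one_pow]
      have h3 : f₀ ^ p = 0 := by
        obtain ⟨k, hk⟩ : ∃ k, p = 2 + k := ⟨p - 2, by have := hp.out.two_le; omega⟩
        rw [hk, pow_add, sq, hsq, zero_mul]
      rw [h3, zero_add]
    have hscal : ∃ t : F, f = t • (1 : End F V) := by
      by_cases hm1 : m = 1
      · exact ⟨1, by rw [one_smul, ← hfm, hm1, pow_one]⟩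
      · have hm0 : m ≠ 0 := by
          rintro rfl
          rw [Nat.coprime_zero_left] at hmp
          exact hp.out.one_lt.ne' hmp
        obtain ⟨k, -, hk⟩ := Nat.exists_mul_mod_eq_one_of_coprime hmp.symm (by omega : 1 < m)
        refine ⟨((-s) ^ p) ^ k, ?_⟩
        have h1 : f ^ (p * k) = f := by
          conv_lhs => rw [← Nat.div_add_mod (p * k) m, hk, pow_add, pow_mul, hfm, one_pow, one_mul, pow_one]
        rw [← h1, pow_mul, hfp, smul_pow, one_pow]
    obtain ⟨t, ht⟩ := hscal
    have h2 : t • (1 : End F V) + (-1 : F) • f = 0 := by rw [← ht]; module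
    have := (huniq _ _ h2).2
    exact absurd this (by norm_num)

theorem mulAut_conj_eq_of_commute_aux {W : Type*} [CommGroup W] [Finite W] {p : ℕ} [hp : Fact p.Prime]
    [Module (ZMod p) (Additive W)] (hcard : Nat.card W ≤ p ^ 2) (φ ψ : MulAut W)
    {n m : ℕ} (hn : Odd n) (hnp : n.Coprime p) (hψ : ψ ^ n = 1) (hmp : m.Coprime p) (hφ : φ ^ m = 1)
    (hcomm : Commute (ψ * φ * ψ⁻¹) φ) : ψ * φ * ψ⁻¹ = φ := by
  haveI : Finite (Additive W) := inferInstanceAs (Finite W)
  haveI : FiniteDimensional (ZMod p) (Additive W) := Module.Finite.of_finite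
  have hdim : finrank (ZMod p) (Additive W) ≤ 2 := by
    have h1 : Nat.card (Additive W) = p ^ finrank (ZMod p) (Additive W) := by
      rw [Module.natCard_eq_pow_finrank (K := ZMod p) (V := Additive W), Nat.card_zmod]
    have h2 : Nat.card (Additive W) = Nat.card W := rfl
    rw [h2] at h1
    rw [h1] at hcard
    exact (Nat.pow_le_pow_iff_right hp.out.one_lt).mp hcard
  obtain ⟨L, hL⟩ : ∃ L : MulAut W →* End (ZMod p) (Additive W),
      ∀ (a : MulAut W) (x : Additive W), L a x = Additive.ofMul (a (Additive.toMul x)) :=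
    ⟨{ toFun := fun φ => (MonoidHom.toAdditive φ.toMonoidHom).toZModLinearMap p
       map_one' := LinearMap.ext fun x => rfl
       map_mul' := fun a b => LinearMap.ext fun x => rfl }, fun a x => rfl⟩
  have hLinj : Function.Injective L := by
    intro a b hab
    ext w
    have h1 := hL a (Additive.ofMul w)
    rw [hab, hL b] at h1
    exact (Additive.ofMul.injective h1).symm
  apply hLinj
  have h1 := conj_eq_of_commute (p := p) hdim (L φ) (Units.map L (toUnits ψ)) hn hnp
    (by rw [← map_pow, ← map_pow, hψ, map_one, map_one]) hmp (by rw [← L.map_pow, hφ, L.map_one])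
  have h2 : ((Units.map L (toUnits ψ) : (End (ZMod p) (Additive W))ˣ) : End (ZMod p) (Additive W)) = L ψ := rfl
  have h3 : (((Units.map L (toUnits ψ))⁻¹ : (End (ZMod p) (Additive W))ˣ) : End (ZMod p) (Additive W)) = L ψ⁻¹ := rfl
  rw [h2, h3, ← L.map_mul, ← L.map_mul] at h1
  exact h1 (hcomm.map L)

/-- the same for automorphisms of an elementary abelian group of order at most `p ^ 2` -/
theorem mulAut_conj_eq_of_commute {W : Type*} [CommGroup W] [Finite W] {p : ℕ} [hp : Fact p.Prime]
    (hexp : ∀ w : W, w ^ p = 1) (hcard : Nat.card W ≤ p ^ 2) (φ ψ : MulAut W)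
    {n m : ℕ} (hn : Odd n) (hnp : n.Coprime p) (hψ : ψ ^ n = 1) (hmp : m.Coprime p) (hφ : φ ^ m = 1)
    (hcomm : Commute (ψ * φ * ψ⁻¹) φ) : ψ * φ * ψ⁻¹ = φ := by
  letI : Module (ZMod p) (Additive W) := AddCommGroup.zmodModule (n := p) (by
    intro x
    show Additive.ofMul ((Additive.toMul x) ^ p) = 0
    rw [hexp]; rfl)
  exact mulAut_conj_eq_of_commute_aux hcard φ ψ hn hnp hψ hmp hφ hcomm

open Subgroup
open scoped commutatorElement

theorem conjNormal_eq_one_iff {X : Type*} [Group X] (V : Subgroup X) [V.Normal] (g : X) :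
    (MulAut.conjNormal g : MulAut ↥V) = 1 ↔ g ∈ centralizer (V : Set X) := by
  rw [mem_centralizer_iff]
  constructor
  · intro h v hv
    have h1 : ((MulAut.conjNormal g : MulAut ↥V) ⟨v, hv⟩ : X) = v := by rw [h]; rfl
    rw [MulAut.conjNormal_apply] at h1
    calc v * g = (g * v * g⁻¹) * g := by rw [h1]
      _ = g * v := by group
  · intro h
    ext v
    rw [MulAut.conjNormal_apply, MulAut.one_apply, ← h v v.2]
    group

/-- the same inside a group, for a normal elementary abelian subgroup of order at most `p ^ 2` -/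
theorem comm_mem_centralizer_of {X : Type*} [Group X] [Finite X] {p : ℕ} [hp : Fact p.Prime]
    (V : Subgroup X) [V.Normal] (hVcomm : ∀ a ∈ V, ∀ b ∈ V, a * b = b * a) (hVexp : ∀ a ∈ V, a ^ p = 1)
    (hVc : Nat.card V ≤ p ^ 2) {x y : X} {n m : ℕ} (hn : Odd n) (hnp : n.Coprime p) (hy : y ^ n = 1)
    (hmp : m.Coprime p) (hx : x ^ m = 1) (h : ⁅y * x * y⁻¹, x⁆ ∈ centralizer (V : Set X)) :
    ⁅y, x⁆ ∈ centralizer (V : Set X) := by
  letI : CommGroup ↥V :=
    { (inferInstance : Group ↥V) with mul_comm := fun a b => Subtype.ext (hVcomm a a.2 b b.2) }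
  rw [← conjNormal_eq_one_iff] at h ⊢
  have h1 := mulAut_conj_eq_of_commute (W := ↥V) (p := p) (fun w => Subtype.ext (hVexp w w.2)) hVc
    (MulAut.conjNormal x) (MulAut.conjNormal y) hn hnp (by rw [← map_pow, hy, map_one]) hmp
    (by rw [← map_pow, hx, map_one])
    (by
      simp only [commutatorElement_def, map_mul, map_inv] at h
      have h2 := mul_inv_eq_one.mp h
      exact mul_inv_eq_iff_eq_mul.mp h2)
  rw [commutatorElement_def, map_mul, map_mul, map_mul, map_inv, map_inv, h1, mul_inv_cancel]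

/-- the iterated commutator subgroups of a subgroup -/
def dsub {X : Type*} [Group X] (T : Subgroup X) : ℕ → Subgroup X
  | 0 => T
  | (k + 1) => ⁅dsub T k, dsub T k⁆

theorem dsub_le_derivedSeries {X : Type*} [Group X] (T : Subgroup X) (k : ℕ) : dsub T k ≤ derivedSeries X k := by
  induction k with
  | zero => exact le_top
  | succ k ih => exact commutator_mono ih ih

theorem dsub_le {X : Type*} [Group X] (T : Subgroup X) (k : ℕ) : dsub T k ≤ T := by
  induction k with
  | zero => exact le_rfl
  | succ k ih =>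
    refine commutator_le.mpr fun a ha b hb => ?_
    exact T.mul_mem (T.mul_mem (T.mul_mem (ih ha) (ih hb)) (T.inv_mem (ih ha))) (T.inv_mem (ih hb))

/-- subgroups of odd order prime to `p` act as abelian groups on a normal elementary abelian subgroup of
order at most `p ^ 2` -/
theorem commutator_le_centralizer_of_card_le_sq {X : Type*} [Group X] [Finite X] [Group.IsSolvable X] {p : ℕ}
    [hp : Fact p.Prime] (V : Subgroup X) [V.Normal] (hVcomm : ∀ a ∈ V, ∀ b ∈ V, a * b = b * a)
    (hVexp : ∀ a ∈ V, a ^ p = 1) (hVc : Nat.card V ≤ p ^ 2) (T : Subgroup X) (hTodd : Odd (Nat.card T))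
    (hTp : (Nat.card T).Coprime p) : ⁅T, T⁆ ≤ centralizer (V : Set X) := by
  have hpow : ∀ t ∈ T, t ^ Nat.card T = 1 := fun t ht =>
    congrArg Subtype.val (pow_card_eq_one' (x := (⟨t, ht⟩ : T)))
  have hQ : ∀ x ∈ T, ∀ y ∈ T, ⁅y * x * y⁻¹, x⁆ ∈ centralizer (V : Set X) → ⁅y, x⁆ ∈ centralizer (V : Set X) :=
    fun x hx y hy h => comm_mem_centralizer_of V hVcomm hVexp hVc hTodd hTp (hpow y hy) hTp (hpow x hx) h
  have hmeta : ∀ K : Subgroup X, K ≤ T → ⁅⁅K, K⁆, ⁅K, K⁆⁆ ≤ centralizer (V : Set X) →
      ⁅K, K⁆ ≤ centralizer (V : Set X) := by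
    intro K hKT hKK
    have hK' : ⁅K, K⁆ ≤ K := by
      refine commutator_le.mpr fun a ha b hb => ?_
      exact K.mul_mem (K.mul_mem (K.mul_mem ha hb) (K.inv_mem ha)) (K.inv_mem hb)
    have ha : ∀ x ∈ ⁅K, K⁆, ∀ y ∈ K, ⁅y, x⁆ ∈ centralizer (V : Set X) := by
      intro x hx y hy
      apply hQ x (hKT (hK' hx)) y (hKT hy)
      apply hKK
      refine commutator_mem_commutator ?_ hx
      have h1 : y * x * y⁻¹ = ⁅y, x⁆ * x := by rw [commutatorElement_def]; group
      rw [h1]
      exact mul_mem (commutator_mem_commutator hy (hK' hx)) hx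
    refine commutator_le.mpr fun y hy x hx => ?_
    apply hQ x (hKT hx) y (hKT hy)
    have h1 : ⁅y * x * y⁻¹, x⁆ = (⁅x, ⁅y, x⁆⁆)⁻¹ := by
      simp only [commutatorElement_def]; group
    rw [h1]
    exact inv_mem (ha _ (commutator_mem_commutator hy hx) x hx)
  have hind : ∀ k, dsub T (k + 1) ≤ centralizer (V : Set X) → dsub T 1 ≤ centralizer (V : Set X) := by
    intro k
    induction k with
    | zero => exact id
    | succ k ih =>
      intro h
      exact ih (hmeta (dsub T k) (dsub_le T k) h)
  obtain ⟨k, hk⟩ := Group.IsSolvable.solvable (G := X)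
  apply hind k
  have h1 : dsub T (k + 1) ≤ dsub T k := by
    refine commutator_le.mpr fun a ha b hb => ?_
    exact mul_mem (mul_mem (mul_mem ha hb) (inv_mem ha)) (inv_mem hb)
  exact (h1.trans ((dsub_le_derivedSeries T k).trans hk.le)).trans bot_le

/-- groups of order at most `p ^ 2` are commutative -/
theorem mul_comm_of_card_le_sq {Q : Type*} [Group Q] [Finite Q] {p : ℕ} [hp : Fact p.Prime] (hQ : IsPGroup p Q)
    (hc : Nat.card Q ≤ p ^ 2) (a b : Q) : a * b = b * a := by
  obtain ⟨k, hk⟩ := IsPGroup.iff_card.mp hQ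
  rw [hk] at hc
  have hk2 : k ≤ 2 := (Nat.pow_le_pow_iff_right hp.out.one_lt).mp hc
  interval_cases k
  · haveI : Subsingleton Q := (Nat.card_eq_one_iff_unique.mp (by simpa using hk)).1
    exact Subsingleton.elim _ _
  · haveI := isCyclic_of_prime_card (p := p) (by simpa using hk)
    exact IsCyclic.commGroup.mul_comm a b
  · exact (IsPGroup.isMulCommutative_of_card_eq_prime_sq hk).is_comm.comm a b

end Cfsg.Agent.Lib.Helper29
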