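import Mathlib

/-! Dimensions of invariant subspaces. -/

set_option autoImplicit false
set_option linter.unusedSectionVars false

namespace Cfsg.Agent.Lib.Helper29

open Module

variable {F V : Type*} [Field F] [AddCommGroup V] [Module F V] [FiniteDimensional F V]

theorem exists_le_finrank_eq (C : Submodule F V) {l : ℕ} (hl : l ≤ finrank F ↥C) :
    ∃ C₀ : Submodule F V, C₀ ≤ C ∧ finrank F ↥C₀ = l := by
  have hb := (Module.finBasis F ↥C).linearIndependent
  have h1 : LinearIndependent F (fun i : Fin l => ((Module.finBasis F ↥C) (Fin.castLE hl i) : V)) := by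
    have h2 := hb.comp (Fin.castLE hl) (Fin.castLE_injective hl)
    exact h2.map' C.subtype (Submodule.ker_subtype C)
  refine ⟨Submodule.span F (Set.range fun i : Fin l => ((Module.finBasis F ↥C) (Fin.castLE hl i) : V)), ?_, ?_⟩
  · rw [Submodule.span_le]
    rintro _ ⟨i, rfl⟩
    exact ((Module.finBasis F ↥C) (Fin.castLE hl i)).2
  · rw [finrank_span_eq_card h1, Fintype.card_fin]

theorem finrank_sup_of_disjoint (A U : Submodule F V) (h : A ⊓ U = ⊥) :
    finrank F ↥(A ⊔ U) = finrank F ↥A + finrank F ↥U := by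
  have h1 := Submodule.finrank_sup_add_finrank_inf_eq A U
  rw [h, finrank_bot, add_zero] at h1
  exact h1

theorem inv_step (f : V →ₗ[F] V) (W A U : Submodule F V) (hW : W.map f ≤ W) (hA : A.map f ≤ A)
    (hU : U.map f ≤ U) (hirr : ∀ W' : Submodule F V, W' ≤ U → W'.map f ≤ W' → W' = ⊥ ∨ W' = U)
    (hdisj : A ⊓ U = ⊥) :
    finrank F ↥(W ⊓ (A ⊔ U)) = finrank F ↥(W ⊓ A) ∨
      finrank F ↥(W ⊓ (A ⊔ U)) = finrank F ↥(W ⊓ A) + finrank F ↥U := by
  obtain ⟨X, hX⟩ : ∃ X, X = W ⊓ (A ⊔ U) := ⟨_, rfl⟩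
  have hXW : X ≤ W := hX ▸ inf_le_left
  have hXAU : X ≤ A ⊔ U := hX ▸ inf_le_right
  have hAUinv : (A ⊔ U).map f ≤ A ⊔ U := by
    rw [Submodule.map_sup]; exact sup_le_sup hA hU
  have hXinv : X.map f ≤ X := by
    rw [hX]
    exact le_inf ((Submodule.map_mono inf_le_left).trans hW) ((Submodule.map_mono inf_le_right).trans hAUinv)
  have hXAinv : (X ⊔ A).map f ≤ X ⊔ A := by
    rw [Submodule.map_sup]; exact sup_le_sup hXinv hA
  have hYinv : (U ⊓ (X ⊔ A)).map f ≤ U ⊓ (X ⊔ A) :=
    le_inf ((Submodule.map_mono inf_le_left).trans hU) ((Submodule.map_mono inf_le_right).trans hXAinv)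
  have hmod : X ⊔ A = A ⊔ U ⊓ (X ⊔ A) := by
    have h1 := sup_inf_assoc_of_le (x := A) U (z := X ⊔ A) le_sup_right
    rw [← h1]
    exact (inf_eq_right.mpr (sup_le hXAU le_sup_left)).symm
  have hXA : X ⊓ A = W ⊓ A := by
    rw [hX, inf_assoc, inf_eq_right.mpr (le_sup_left : A ≤ A ⊔ U)]
  rw [← hX]
  rcases hirr _ inf_le_left hYinv with h | h
  · left
    rw [h, sup_bot_eq] at hmod
    have h2 : X ≤ A := le_sup_left.trans hmod.le
    rw [← hXA, inf_eq_left.mpr h2]
  · right
    rw [h] at hmod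
    have h2 := Submodule.finrank_sup_add_finrank_inf_eq X A
    rw [hmod, finrank_sup_of_disjoint A U hdisj, hXA] at h2
    omega

/-- the chain `C₀ ≤ C₀ + U 0 ≤ C₀ + U 0 + U 1 ≤ ...` -/
def chainSup (C₀ : Submodule F V) (U : ℕ → Submodule F V) : ℕ → Submodule F V
  | 0 => C₀
  | (k + 1) => chainSup C₀ U k ⊔ U k

theorem chainSup_mono_left {C₀ C : Submodule F V} (h : C₀ ≤ C) (U : ℕ → Submodule F V) (k : ℕ) :
    chainSup C₀ U k ≤ chainSup C U k := by
  induction k with
  | zero => exact h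
  | succ k ih => exact sup_le_sup ih le_rfl

theorem chainSup_mono (C : Submodule F V) (U : ℕ → Submodule F V) {k l : ℕ} (h : k ≤ l) :
    chainSup C U k ≤ chainSup C U l := by
  induction l with
  | zero => rw [Nat.le_zero.mp h]
  | succ l ih =>
    rcases Nat.lt_or_ge k (l + 1) with h1 | h1
    · exact (ih (by omega)).trans le_sup_left
    · rw [show k = l + 1 by omega]

theorem chainSup_inv (f : V →ₗ[F] V) (C : Submodule F V) (U : ℕ → Submodule F V) (hC : C.map f ≤ C)
    (hU : ∀ k, (U k).map f ≤ U k) (k : ℕ) : (chainSup C U k).map f ≤ chainSup C U k := by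
  induction k with
  | zero => exact hC
  | succ k ih =>
    show (chainSup C U k ⊔ U k).map f ≤ chainSup C U k ⊔ U k
    rw [Submodule.map_sup]; exact sup_le_sup ih (hU k)

theorem inv_dim_main (f : V →ₗ[F] V) (C : Submodule F V) (hCfix : ∀ x ∈ C, f x = x) (U : ℕ → Submodule F V)
    {s a : ℕ} (hUinv : ∀ k, (U k).map f ≤ U k) (hUdim : ∀ k < s, finrank F ↥(U k) = a)
    (hUirr : ∀ k < s, ∀ W : Submodule F V, W ≤ U k → W.map f ≤ W → W = ⊥ ∨ W = U k)
    (hdisj : ∀ k < s, chainSup C U k ⊓ U k = ⊥) (htop : chainSup C U s = ⊤) (m : ℕ)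
    (hmV : m < finrank F V) :
    (∃ W : Submodule F V, finrank F ↥W = m ∧ W.map f ≤ W) ↔
      (m ≤ finrank F ↥C ∨ (a ≤ m ∧ m % a ≤ finrank F ↥C)) := by
  have hinv_of_le : ∀ C₀ : Submodule F V, C₀ ≤ C → C₀.map f ≤ C₀ := by
    rintro C₀ h _ ⟨x, hx, rfl⟩
    rw [hCfix x (h hx)]; exact hx
  have hdim : ∀ C₀ : Submodule F V, C₀ ≤ C → ∀ k ≤ s,
      finrank F ↥(chainSup C₀ U k) = finrank F ↥C₀ + k * a := by
    intro C₀ h k
    induction k with
    | zero =>
      intro _
      show finrank F ↥C₀ = finrank F ↥C₀ + 0 * a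
      rw [zero_mul, add_zero]
    | succ k ih =>
      intro hk
      show finrank F ↥(chainSup C₀ U k ⊔ U k) = _
      rw [finrank_sup_of_disjoint _ _ (le_bot_iff.mp ((inf_le_inf_right _ (chainSup_mono_left h U k)).trans
        (hdisj k (by omega)).le)), ih (by omega), hUdim k (by omega)]
      ring
  have hV : finrank F V = finrank F ↥C + s * a := by
    rw [← hdim C le_rfl s le_rfl, htop, finrank_top]
  constructor
  · rintro ⟨W, hWm, hWinv⟩
    have hcl : ∀ k ≤ s, ∃ t : ℕ, finrank F ↥(W ⊓ chainSup C U k) = finrank F ↥(W ⊓ C) + t * a := by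
      intro k
      induction k with
      | zero =>
        intro _
        refine ⟨0, ?_⟩
        show finrank F ↥(W ⊓ C) = finrank F ↥(W ⊓ C) + 0 * a
        rw [zero_mul, add_zero]
      | succ k ih =>
        intro hk
        obtain ⟨t, ht⟩ := ih (by omega)
        rcases inv_step f W (chainSup C U k) (U k) hWinv (chainSup_inv f C U (hinv_of_le C le_rfl) hUinv k)
          (hUinv k) (hUirr k (by omega)) (hdisj k (by omega)) with h | h
        · exact ⟨t, h.trans ht⟩
        · refine ⟨t + 1, h.trans ?_⟩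
          rw [ht, hUdim k (by omega)]; ring
    obtain ⟨t, ht⟩ := hcl s le_rfl
    rw [htop, inf_top_eq, hWm] at ht
    have hi : finrank F ↥(W ⊓ C) ≤ finrank F ↥C := Submodule.finrank_mono inf_le_right
    rcases Nat.eq_zero_or_pos t with rfl | htpos
    · left; omega
    · right
      constructor
      · have : a ≤ t * a := Nat.le_mul_of_pos_left a htpos
        omega
      · rw [ht, Nat.add_mul_mod_self_right]
        exact (Nat.mod_le _ _).trans hi
  · intro h
    obtain ⟨l, k, hl, hk, hm⟩ : ∃ l k : ℕ, l ≤ finrank F ↥C ∧ k ≤ s ∧ m = l + k * a := by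
      rcases h with h | ⟨h1, h2⟩
      · exact ⟨m, 0, h, Nat.zero_le _, by simp⟩
      · by_cases hks : m / a ≤ s
        · exact ⟨m % a, m / a, h2, hks, by rw [mul_comm]; exact (Nat.mod_add_div m a).symm⟩
        · push Not at hks
          have h3 : (s + 1) * a ≤ m := (Nat.mul_le_mul_right a hks).trans (Nat.div_mul_le_self m a)
          have h4 : (s + 1) * a = s * a + a := by ring
          exact ⟨m - s * a, s, by omega, le_rfl, by omega⟩
    obtain ⟨C₀, hC₀, hC₀d⟩ := exists_le_finrank_eq C hl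
    exact ⟨chainSup C₀ U k, by rw [hdim C₀ hC₀ k hk, hC₀d, hm], chainSup_inv f C₀ U (hinv_of_le C₀ hC₀) hUinv k⟩

end Cfsg.Agent.Lib.Helper29
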