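import Mathlib
import Cfsg.Agent.Lib.Helper29.TransPC
import Cfsg.Agent.Lib.Helper1.Nilp
import Cfsg.Agent.Lib.Helper8.Coprime
import Cfsg.Agent.Lib.Helper16.CharP

/-!
Invariant `p'`-subgroups when `[P, E] ≤ E` (for instance when the Sylow subgroups have class at most two).
-/

set_option autoImplicit false

namespace Cfsg.Agent.Lib.Helper29

open Subgroup Cfsg
open scoped commutatorElement

variable {X : Type*} [Group X] [Finite X]

theorem c2_lemma (p : ℕ) [hpp : Fact p.Prime] (P₀ K E : Subgroup X) (hP : IsPGroup p P₀)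
    (hK : (Nat.card K).Coprime p) (hE : IsPGroup p E) (hEc : ∀ a ∈ E, ∀ b ∈ E, a * b = b * a)
    (hKP : K ≤ normalizer (P₀ : Set X)) (hEP : E ≤ normalizer (P₀ : Set X))
    (hEK : E ≤ normalizer (K : Set X))
    (hcomm : ∀ x ∈ P₀, ∀ e ∈ E, e * x * e⁻¹ * x⁻¹ ∈ E)
    (hfull : ∀ x ∈ P₀, x ∈ centralizer (E : Set X) → x ∈ E) : K ≤ centralizer (P₀ : Set X) := by
  obtain ⟨B₀, hB₀⟩ : ∃ B₀, B₀ = E ⊓ P₀ := ⟨_, rfl⟩
  have hB₀E : B₀ ≤ E := hB₀ ▸ inf_le_left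
  have hB₀P : B₀ ≤ P₀ := hB₀ ▸ inf_le_right
  have hB₀K : B₀ ≤ centralizer (K : Set X) := fun x hx =>
    mem_centralizer_of_mem_inf hP hK hKP (hB₀P hx) (hEK (hB₀E hx))
  have hKB₀ : K ≤ centralizer (B₀ : Set X) := le_centralizer_iff.mp hB₀K
  obtain ⟨R₁, hR₁⟩ : ∃ R₁, R₁ = P₀ ⊓ centralizer (B₀ : Set X) := ⟨_, rfl⟩
  have hR₁P : R₁ ≤ P₀ := hR₁ ▸ inf_le_left
  have hR₁p : IsPGroup p R₁ := hP.to_le hR₁P
  have hEB₀ : E ≤ normalizer (B₀ : Set X) := by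
    rw [hB₀]; exact Cfsg.Agent.Lib.Helper1.le_normalizer_inf le_normalizer hEP
  have hER₁ : E ≤ normalizer (R₁ : Set X) := by
    rw [hR₁]
    exact Cfsg.Agent.Lib.Helper1.le_normalizer_inf hEP
      (hEB₀.trans (Cfsg.Agent.Lib.Helper16.normalizer_le_normalizer_centralizer B₀))
  have hKR₁ : K ≤ normalizer (R₁ : Set X) := by
    rw [hR₁]
    exact Cfsg.Agent.Lib.Helper1.le_normalizer_inf hKP
      ((hKB₀.trans (centralizer_le_normalizer _)).trans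
        (Cfsg.Agent.Lib.Helper16.normalizer_le_normalizer_centralizer B₀))
  -- `C_K(E)` centralizes `R₁`
  have h3 : K ⊓ centralizer (E : Set X) ≤ centralizer (R₁ : Set X) := by
    have := Cfsg.Agent.Lib.Helper1.thompson_PxQ p E (K ⊓ centralizer (E : Set X)) hE
      (Nat.Coprime.of_dvd_left (Subgroup.card_dvd_of_le inf_le_left) hK)
      (le_centralizer_iff.mp inf_le_right) _ R₁ rfl hR₁p hER₁ (inf_le_left.trans hKR₁) (by
        intro x hx
        have hx1 : x ∈ B₀ := by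
          rw [hB₀]
          exact Subgroup.mem_inf.mpr ⟨hfull x (hR₁P (Subgroup.mem_inf.mp hx).1) (Subgroup.mem_inf.mp hx).2,
            hR₁P (Subgroup.mem_inf.mp hx).1⟩
        exact centralizer_le (by exact_mod_cast (inf_le_left : K ⊓ centralizer (E : Set X) ≤ K)) (hB₀K hx1))
    rw [commutator_eq_bot_iff_le_centralizer] at this
    exact le_centralizer_iff.mp this
  -- `[K, E]` centralizes `R₁`
  let T : Subgroup X :=
    { carrier := {g | g ∈ normalizer (R₁ : Set X) ∧ ∀ x ∈ R₁, g * x * g⁻¹ * x⁻¹ ∈ B₀}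
      one_mem' := ⟨one_mem _, fun x _ => by simp⟩
      mul_mem' := by
        rintro g h ⟨hg, hg'⟩ ⟨hh, hh'⟩
        refine ⟨mul_mem hg hh, fun x hx => ?_⟩
        have h1 : h * x * h⁻¹ ∈ R₁ := (mem_normalizer_iff.mp hh x).mp hx
        have h2 : g * h * x * (g * h)⁻¹ * x⁻¹ =
            (g * (h * x * h⁻¹) * g⁻¹ * (h * x * h⁻¹)⁻¹) * (h * x * h⁻¹ * x⁻¹) := by group
        rw [h2]
        exact mul_mem (hg' _ h1) (hh' x hx)
      inv_mem' := by
        rintro g ⟨hg, hg'⟩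
        refine ⟨inv_mem hg, fun x hx => ?_⟩
        have h1 : g⁻¹ * x * g⁻¹⁻¹ ∈ R₁ := (mem_normalizer_iff.mp (inv_mem hg) x).mp hx
        have h2 := hg' _ h1
        have h3 : g⁻¹ * x * g⁻¹⁻¹ * x⁻¹ = (g * (g⁻¹ * x * g⁻¹⁻¹) * g⁻¹ * (g⁻¹ * x * g⁻¹⁻¹)⁻¹)⁻¹ := by group
        rw [h3]
        exact inv_mem h2 }
  have hET : E ≤ T := by
    intro e he
    refine ⟨hER₁ he, fun x hx => ?_⟩
    rw [hB₀]
    refine Subgroup.mem_inf.mpr ⟨hcomm x (hR₁P hx) e he, ?_⟩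
    exact mul_mem ((mem_normalizer_iff.mp (hEP he) x).mp (hR₁P hx)) (inv_mem (hR₁P hx))
  have hKT : ∀ k ∈ K, ∀ g ∈ T, k * g * k⁻¹ ∈ T := by
    rintro k hk g ⟨hg, hg'⟩
    refine ⟨mul_mem (mul_mem (hKR₁ hk) hg) (inv_mem (hKR₁ hk)), fun x hx => ?_⟩
    have h1 : k⁻¹ * x * k⁻¹⁻¹ ∈ R₁ := (mem_normalizer_iff.mp (inv_mem (hKR₁ hk)) x).mp hx
    have h2 := hg' _ h1
    have h3 := (mem_centralizer_iff.mp (hKB₀ hk)) _ h2
    have h4 : k * g * k⁻¹ * x * (k * g * k⁻¹)⁻¹ * x⁻¹ =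
        k * (g * (k⁻¹ * x * k⁻¹⁻¹) * g⁻¹ * (k⁻¹ * x * k⁻¹⁻¹)⁻¹) * k⁻¹ := by group
    rw [h4, ← h3, mul_inv_cancel_right]
    exact h2
  have hcT : ⁅K, E⁆ ≤ T := by
    rw [commutator_le]
    intro k hk e he
    rw [commutatorElement_def]
    exact mul_mem (hKT k hk e (hET he)) (inv_mem (hET he))
  have hcK : ⁅K, E⁆ ≤ K := Cfsg.Agent.Lib.Helper1.commutator_le_of_le_normalizer hEK
  have h4 : ⁅K, E⁆ ≤ centralizer (R₁ : Set X) := by
    intro g hg
    have hgK := hcK hg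
    obtain ⟨hgN, hgB⟩ := hcT hg
    have hord : (orderOf g).Coprime p :=
      Nat.Coprime.of_dvd_left (Subgroup.orderOf_dvd_natCard K hgK) hK
    have := Cfsg.Agent.Lib.Helper8.centralizes_of_stabilizes hR₁p hgN hord (by
      intro x hx
      have h1 : x * g * x⁻¹ * g⁻¹ = (g * x * g⁻¹ * x⁻¹)⁻¹ := by group
      rw [h1]
      exact (mem_centralizer_iff.mp (hKB₀ hgK)) _ (inv_mem (hgB x hx)))
    rw [mem_centralizer_iff]
    exact this
  have hEsolv : Group.IsSolvable E := by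
    haveI := hE.isNilpotent
    infer_instance
  have hcopEK : (Nat.card E).Coprime (Nat.card K) := by
    obtain ⟨n, hn⟩ := IsPGroup.iff_card.mp hE
    rw [hn]
    exact (Nat.Coprime.pow_right n hK).symm
  have h5 : K ≤ centralizer (R₁ : Set X) := by
    rw [← Cfsg.Agent.Lib.Helper1.coprime_commutator_sup_centralizer E K hEK hcopEK (Or.inl hEsolv)]
    exact sup_le h4 h3
  have h6 := Cfsg.Agent.Lib.Helper1.thompson_PxQ p B₀ K (hP.to_le hB₀P) hK hB₀K _ P₀ rfl hP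
    (hB₀P.trans le_normalizer) hKP (by rw [← hR₁]; exact le_centralizer_iff.mp h5)
  rw [commutator_eq_bot_iff_le_centralizer] at h6
  exact le_centralizer_iff.mp h6

/-- **Invariant `p'`-subgroups, Sylow subgroups of class at most two.** -/
theorem inv_le_pPrimeCore_cl2 (p : ℕ) [hpp : Fact p.Prime] (hX : IsPConstrained p X)
    (A : Subgroup X) (hAc : ∀ a ∈ A, ∀ b ∈ A, a * b = b * a) (S : Sylow p X) (hAS : A ≤ S)
    (hcl : ∀ x ∈ S, ∀ y ∈ S, ∀ z ∈ S, (x * y * x⁻¹ * y⁻¹) * z = z * (x * y * x⁻¹ * y⁻¹))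
    (hfull : ∀ x ∈ centralizer (A : Set X), IsPGroup p (zpowers x) → x ∈ A) (Q : Subgroup X)
    (hQ : ¬ p ∣ Nat.card Q) (hAQ : A ≤ normalizer (Q : Set X)) : Q ≤ pPrimeCore p X := by
  have hMn : (pPrimePCore p X).Normal :=
    (Cfsg.Agent.Lib.Helper1.pCore_normal (G := X ⧸ pPrimeCore p X) p).comap _
  have hAp : IsPGroup p A := S.2.to_le hAS
  refine inv_le_pPrimeCore p hX A Q S hAS ((Nat.Prime.coprime_iff_not_dvd hpp.out).mpr hQ).symm hAQ ?_
  intro K hK hAK hKP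
  have hPp : IsPGroup p ((S : Subgroup X) ⊓ pPrimePCore p X : Subgroup X) := S.2.to_le inf_le_left
  refine c2_lemma p _ K A hPp hK hAp hAc hKP ?_ hAK ?_ ?_
  · intro a ha
    apply Cfsg.Agent.Lib.Helper1.mem_normalizer_of_conj_mem
    intro u hu
    exact Subgroup.mem_inf.mpr ⟨mul_mem (mul_mem (hAS ha) (Subgroup.mem_inf.mp hu).1) (inv_mem (hAS ha)),
      hMn.conj_mem u (Subgroup.mem_inf.mp hu).2 a⟩
  · intro x hx e he
    have hxS := (Subgroup.mem_inf.mp hx).1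
    apply hfull
    · rw [mem_centralizer_iff]
      intro a ha
      exact (hcl e (hAS he) x hxS a (hAS ha)).symm
    · exact S.2.to_le (zpowers_le.mpr (mul_mem (mul_mem (mul_mem (hAS he) hxS) (inv_mem (hAS he)))
        (inv_mem hxS)))
  · intro x hx hxc
    exact hfull x hxc (S.2.to_le (zpowers_le.mpr (Subgroup.mem_inf.mp hx).1))

end Cfsg.Agent.Lib.Helper29
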