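import Mathlib
import Cfsg.Agent.Lib.Helper29.TransC2
import Cfsg.Agent.Lib.Helper29.TransTH

/-!
The Thompson transitivity theorem for groups whose `p`-local subgroups are `p`-constrained.
-/

set_option autoImplicit false

namespace Cfsg.Agent.Lib.Helper29

open Subgroup Cfsg
open scoped commutatorElement
open Cfsg.Agent.Lib.Helper12 (cj)

theorem comm_central_of_class_le_two {S : Type*} [Group S] [hn : Group.IsNilpotent S]
    (h : Group.nilpotencyClass S ≤ 2) (x y z : S) :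
    (x * y * x⁻¹ * y⁻¹) * z = z * (x * y * x⁻¹ * y⁻¹) := by
  have h1 : (⊤ : Subgroup S).lowerCentralSeries 2 = ⊥ := by
    rw [eq_bot_iff, ← Subgroup.lowerCentralSeries_nilpotencyClass (G := S)]
    exact Subgroup.lowerCentralSeries_antitone _ h
  have h2 : ⁅x, y⁆ ∈ (⊤ : Subgroup S).lowerCentralSeries 1 := by
    rw [Subgroup.lowerCentralSeries_succ]
    exact Subgroup.commutator_mem_commutator (mem_top x) (mem_top y)
  have h3 : ⁅⁅x, y⁆, z⁆ ∈ (⊤ : Subgroup S).lowerCentralSeries 2 := by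
    rw [Subgroup.lowerCentralSeries_succ]
    exact Subgroup.commutator_mem_commutator h2 (mem_top z)
  rw [h1, mem_bot, commutatorElement_eq_one_iff_mul_comm, commutatorElement_def] at h3
  exact h3

variable {G : Type*} [Group G] [Finite G]

theorem le_normalizer_sup {A X Y : Subgroup G} (hX : A ≤ normalizer (X : Set G))
    (hY : A ≤ normalizer (Y : Set G)) : A ≤ normalizer ((X ⊔ Y : Subgroup G) : Set G) := by
  intro a ha
  apply Cfsg.Agent.Lib.Helper1.mem_normalizer_of_conj_mem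
  intro u hu
  have h1 : (X ⊔ Y).map (MulAut.conj a).toMonoidHom = X ⊔ Y := by
    rw [Subgroup.map_sup]
    congr 1
    · exact (mem_normalizer_iff_map_conj_eq.mp (hX ha))
    · exact (mem_normalizer_iff_map_conj_eq.mp (hY ha))
  rw [← h1]
  exact ⟨u, hu, rfl⟩

/-- relative form of `inv_le_pPrimeCore_cl2` -/
theorem inv_le_map_pPrimeCore_cl2 (p : ℕ) [hpp : Fact p.Prime] (H : Subgroup G)
    (hH : IsPConstrained p H) (E : Subgroup G) (hEH : E ≤ H) (hEp : IsPGroup p E)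
    (hEc : ∀ a ∈ E, ∀ b ∈ E, a * b = b * a)
    (hcl : ∀ S : Sylow p G, ∀ x ∈ S, ∀ y ∈ S, ∀ z ∈ S,
      (x * y * x⁻¹ * y⁻¹) * z = z * (x * y * x⁻¹ * y⁻¹))
    (hfull : ∀ x ∈ centralizer (E : Set G), IsPGroup p (zpowers x) → x ∈ E) (Y : Subgroup G)
    (hYH : Y ≤ H) (hY : ¬ p ∣ Nat.card Y) (hEY : E ≤ normalizer (Y : Set G)) :
    Y ≤ (pPrimeCore p H).map H.subtype := by
  obtain ⟨S', hS'⟩ := (hEp.comap_subtype (K := H)).exists_le_sylow
  obtain ⟨S, hS⟩ := (S'.2.map H.subtype).exists_le_sylow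
  have h1 := inv_le_pPrimeCore_cl2 p hH (E.subgroupOf H)
    (fun a ha b hb => Subtype.ext (hEc a (mem_subgroupOf.mp ha) b (mem_subgroupOf.mp hb))) S' hS'
    (fun x hx y hy z hz => Subtype.ext (hcl S x (hS ⟨x, hx, rfl⟩) y (hS ⟨y, hy, rfl⟩) z (hS ⟨z, hz, rfl⟩)))
    (by
      intro x hx hxp
      rw [mem_subgroupOf]
      apply hfull
      · rw [mem_centralizer_iff]
        intro a ha
        exact congrArg Subtype.val ((mem_centralizer_iff.mp hx) ⟨a, hEH ha⟩ (mem_subgroupOf.mpr ha))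
      · have := hxp.map H.subtype
        rwa [MonoidHom.map_zpowers] at this)
    (Y.subgroupOf H) (by rw [Nat.card_congr (Subgroup.subgroupOfEquivOfLe hYH).toEquiv]; exact hY) (by
      intro a ha
      rw [mem_normalizer_iff]
      intro y
      exact (mem_normalizer_iff.mp (hEY (mem_subgroupOf.mp ha)) (y : G)))
  intro y hy
  exact ⟨⟨y, hYH hy⟩, h1 (mem_subgroupOf.mpr hy), rfl⟩

theorem exists_hyperplane_not_le (r : ℕ) [Fact r.Prime] (E R D : Subgroup G) (hE : IsElementaryAbelian r E)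
    (hE2 : r ≤ Nat.card E) (hR : ¬ r ∣ Nat.card R) (hER : E ≤ normalizer (R : Set G)) (hRD : ¬ R ≤ D) :
    ∃ B : Subgroup G, B ≤ E ∧ B.relIndex E = r ∧ ¬ R ⊓ centralizer (B : Set G) ≤ D := by
  by_contra hcon
  push Not at hcon
  apply hRD
  rw [Cfsg.Agent.Lib.Helper9.gen_hyperplanes r E R hE hE2 hR hER]
  apply iSup_le
  intro B
  exact hcon B.1 B.2.1 B.2.2

theorem exists_common_not_le (r : ℕ) [hr : Fact r.Prime] (E R₁ R₂ D : Subgroup G)
    (hE : IsElementaryAbelian r E) (hE2 : r ^ 2 < Nat.card E)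
    (hR₁ : ¬ r ∣ Nat.card R₁) (hER₁ : E ≤ normalizer (R₁ : Set G)) (hRD₁ : ¬ R₁ ≤ D)
    (hR₂ : ¬ r ∣ Nat.card R₂) (hER₂ : E ≤ normalizer (R₂ : Set G)) (hRD₂ : ¬ R₂ ≤ D) :
    ∃ b ∈ E, b ≠ 1 ∧ ¬ R₁ ⊓ centralizer ({b} : Set G) ≤ D ∧ ¬ R₂ ⊓ centralizer ({b} : Set G) ≤ D := by
  have hr1 : r ≤ Nat.card E := by
    have : r ≤ r ^ 2 := by nlinarith [hr.out.one_lt]
    omega
  obtain ⟨B₁, hBE₁, hidx₁, hne₁⟩ := exists_hyperplane_not_le r E R₁ D hE hr1 hR₁ hER₁ hRD₁
  obtain ⟨B₂, hBE₂, hidx₂, hne₂⟩ := exists_hyperplane_not_le r E R₂ D hE hr1 hR₂ hER₂ hRD₂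
  have h1 : Nat.card (B₁ ⊓ B₂ : Subgroup G) * (B₁ ⊓ B₂).relIndex E = Nat.card E :=
    card_mul_relIndex_of_le (inf_le_left.trans hBE₁)
  have h3 : (B₁ ⊓ B₂).relIndex E ≤ r * r := by
    have := Subgroup.relIndex_inf_le (H := B₁) (K := B₂) (L := E)
    rwa [hidx₁, hidx₂] at this
  have h2 : B₁ ⊓ B₂ ≠ ⊥ := by
    intro h
    have h4 : Nat.card (B₁ ⊓ B₂ : Subgroup G) = 1 := by rw [h, Subgroup.card_bot]
    rw [h4] at h1
    nlinarith
  obtain ⟨b, hb, hb1⟩ := exists_ne_one_of_ne_bot h2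
  refine ⟨b, hBE₁ (Subgroup.mem_inf.mp hb).1, hb1, fun h => hne₁ ?_, fun h => hne₂ ?_⟩
  · exact (inf_le_inf_left _ (centralizer_le_centralizer_singleton (Subgroup.mem_inf.mp hb).1)).trans h
  · exact (inf_le_inf_left _ (centralizer_le_centralizer_singleton (Subgroup.mem_inf.mp hb).2)).trans h

theorem primesNotDvd_card_eq {p : ℕ} [hpp : Fact p.Prime] {E : Subgroup G} (hEp : IsPGroup p E)
    (hE1 : E ≠ ⊥) : primesNotDvd (Nat.card E) = primesNotDvd p := by
  obtain ⟨n, hn⟩ := IsPGroup.iff_card.mp hEp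
  have hn0 : n ≠ 0 := by
    intro h
    apply hE1
    rw [h, pow_zero] at hn
    exact (Subgroup.card_eq_one).mp hn
  ext q
  constructor
  · rintro ⟨hq, h⟩
    refine ⟨hq, fun hd => h ?_⟩
    rw [hn]
    exact hd.trans (dvd_pow_self p hn0)
  · rintro ⟨hq, h⟩
    refine ⟨hq, fun hd => h ?_⟩
    rw [hn] at hd
    exact hq.dvd_of_dvd_pow hd

/-- **Thompson transitivity theorem.** -/
theorem thompson_transitivity (p : ℕ) [hpp : Fact p.Prime]
    (hloc : ∀ T : Subgroup G, IsPGroup p T → T ≠ ⊥ → IsPConstrained p ↥(normalizer (T : Set G)))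
    (h2 : p = 2 → ∀ S : Sylow p G, Group.IsNilpotent (S : Subgroup G) ∧
      Group.nilpotencyClass (S : Subgroup G) ≤ 2)
    (E : Subgroup G) (hEp : IsPGroup p E) (hEc : IsMulCommutative E) (hE3 : ¬ PRankLE p 2 E)
    (hEfull : ∀ x ∈ centralizer (E : Set G), IsPGroup p (zpowers x) → x ∈ E)
    (q : ℕ) [hq : Fact q.Prime] (hqp : q ≠ p) :
    ∀ Q₁ ∈ maxInvSubgroups ⊤ E {q}, ∀ Q₂ ∈ maxInvSubgroups ⊤ E {q},
      ∃ k ∈ piCoreOf (primesNotDvd p) (centralizer (E : Set G)), Q₂ = cj k Q₁ := by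
  have hcomm : ∀ a ∈ E, ∀ b ∈ E, a * b = b * a := fun a ha b hb =>
    congrArg Subtype.val (hEc.is_comm.comm ⟨a, ha⟩ ⟨b, hb⟩)
  have hEC : E ≤ centralizer (E : Set G) := by
    intro a ha
    rw [mem_centralizer_iff]
    intro b hb
    exact hcomm b hb a ha
  -- the local lemma
  have hlocal : ∀ T : Subgroup G, IsPGroup p T → T ≠ ⊥ → E ≤ normalizer (T : Set G) →
      ∀ Y : Subgroup G, Y ≤ normalizer (T : Set G) → ¬ p ∣ Nat.card Y → E ≤ normalizer (Y : Set G) →
      Y ≤ (pPrimeCore p ↥(normalizer (T : Set G))).map (normalizer (T : Set G)).subtype := by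
    intro T hT hT1 hET Y hYT hY hEY
    by_cases hp2 : p = 2
    · refine inv_le_map_pPrimeCore_cl2 p _ (hloc T hT hT1) E hET hEp hcomm ?_ hEfull Y hYT hY hEY
      intro S x hx y hy z hz
      obtain ⟨hn, hc⟩ := h2 hp2 S
      exact congrArg Subtype.val (comm_central_of_class_le_two hc ⟨x, hx⟩ ⟨y, hy⟩ ⟨z, hz⟩)
    · refine inv_le_map_pPrimeCore_odd p hp2 _ (hloc T hT hT1) E hET hEp ?_ Y hYT hY hEY
      intro x hx ho
      apply hEfull x hx
      apply IsPGroup.of_card (n := 1)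
      rw [Nat.card_zpowers, ho, pow_one]
  -- an elementary abelian subgroup of rank three
  obtain ⟨E₀, hE₀E, hE₀, hcard⟩ : ∃ E₀ : Subgroup G, E₀ ≤ E ∧ IsElementaryAbelian p E₀ ∧
      p ^ 2 < Nat.card E₀ := by
    unfold PRankLE at hE3
    push Not at hE3
    obtain ⟨B, hc, he, hcard⟩ := hE3
    refine ⟨B.map E.subtype, Cfsg.Agent.Lib.Helper9.map_subtype_le' _ _,
      Cfsg.Agent.Lib.Helper4.elemAb_map _ ⟨hc, he⟩, ?_⟩
    rw [Subgroup.card_map_of_injective (Subgroup.subtype_injective _)]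
    exact hcard
  have hE1 : E ≠ ⊥ := by
    intro h
    have h3 : Nat.card E₀ ≤ Nat.card E := Subgroup.card_le_of_le hE₀E
    rw [h, Subgroup.card_bot] at h3
    have := Nat.pos_of_ne_zero (pow_ne_zero 2 hpp.out.pos.ne')
    omega
  have hEsolv : Group.IsSolvable E := by
    haveI := hEp.isNilpotent
    infer_instance
  have hpq : ∀ Y : Subgroup G, IsPGroup q Y → ¬ p ∣ Nat.card Y := by
    intro Y hY hd
    have := primes_of_isPGroup hY p hpp.out hd
    rw [Set.mem_singleton_iff] at this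
    exact hqp this.symm
  have hcopE : ∀ L : Subgroup G, ¬ p ∣ Nat.card L → (Nat.card E).Coprime (Nat.card L) := by
    intro L hL
    obtain ⟨n, hn⟩ := IsPGroup.iff_card.mp hEp
    rw [hn]
    exact Nat.Coprime.pow_left n ((Nat.Prime.coprime_iff_not_dvd hpp.out).mpr hL)
  -- `p'`-subgroups of `C(E)` normalized by `E`
  have hKle : ∀ L : Subgroup G, ¬ p ∣ Nat.card L → E ≤ normalizer (L : Set G) →
      L ⊓ centralizer (E : Set G) ≤ piCoreOf (primesNotDvd p) (centralizer (E : Set G)) := by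
    intro L hL hEL
    have h3 := hlocal E hEp hE1 le_normalizer (L ⊓ centralizer (E : Set G))
      (inf_le_right.trans (centralizer_le_normalizer _))
      (fun hd => hL (hd.trans (Subgroup.card_dvd_of_le inf_le_left)))
      (Cfsg.Agent.Lib.Helper1.le_normalizer_inf hEL (hEC.trans le_normalizer))
    refine h3.trans ?_
    rw [← primesNotDvd_card_eq hEp hE1]
    refine le_trans ?_ (core_normalizer_le E)
    apply map_pPrimeCore_le_piCoreOf
    intro r hr hd
    obtain ⟨n, hn⟩ := IsPGroup.iff_card.mp hEp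
    rw [hn] at hd
    exact (Nat.prime_dvd_prime_iff_eq hr hpp.out).mp (hr.dvd_of_dvd_pow hd)
  intro Q₁ h₁ Q₂ h₂
  refine trans_core E _ hEsolv q 0 (piCoreOf_le _ _) ?_ Q₁ h₁ Q₂ h₂ (Nat.zero_le _)
  intro D R R' _ hqR hqR' hED hER hER' hDR hDR' hRD hRD'
  obtain ⟨a, haE₀, ha1, hU, hU'⟩ := exists_common_not_le p E₀ R R' D hE₀ hcard (hpq R hqR)
    (hE₀E.trans hER) (not_le_of_gt hDR) (hpq R' hqR') (hE₀E.trans hER') (not_le_of_gt hDR')
  have haE := hE₀E haE₀
  have hTp : IsPGroup p (zpowers a) := hEp.to_le (zpowers_le.mpr haE)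
  have hT1 : zpowers a ≠ ⊥ := by
    intro h
    exact ha1 (zpowers_eq_bot.mp h)
  have hCaH : centralizer ({a} : Set G) ≤ normalizer (zpowers a : Set G) := by
    intro g hg
    apply Cfsg.Agent.Lib.Helper1.mem_normalizer_of_conj_mem
    intro u hu
    obtain ⟨n, rfl⟩ := mem_zpowers_iff.mp hu
    have h3 : Commute g a := (mem_centralizer_singleton_iff.mp hg)
    have h4 : g * a ^ n * g⁻¹ = a ^ n := by
      rw [(h3.zpow_right n).eq, mul_inv_cancel_right]
    rw [h4]; exact hu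
  have hECa : E ≤ centralizer ({a} : Set G) := by
    intro e he
    rw [mem_centralizer_singleton_iff]
    exact hcomm e he a haE
  have hEH := hECa.trans hCaH
  obtain ⟨O, hO⟩ : ∃ O, O = (pPrimeCore p ↥(normalizer (zpowers a : Set G))).map
    (normalizer (zpowers a : Set G)).subtype := ⟨_, rfl⟩
  haveI hOn : (pPrimeCore p ↥(normalizer (zpowers a : Set G))).Normal :=
    (Cfsg.Agent.Lib.Helper1.pPrimeCore_spec p).1
  have hHO : normalizer (zpowers a : Set G) ≤ normalizer (O : Set G) := by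
    rw [hO]; exact Cfsg.Agent.Lib.Helper9.le_normalizer_map_subtype _ _
  have hOp : ¬ p ∣ Nat.card O := by
    rw [hO, Subgroup.card_map_of_injective (Subgroup.subtype_injective _)]
    exact (Nat.Prime.coprime_iff_not_dvd hpp.out).mp (Cfsg.Agent.Lib.Helper1.pPrimeCore_spec p).2.symm
  have hENCa : E ≤ normalizer ((centralizer ({a} : Set G) : Subgroup G) : Set G) := hECa.trans le_normalizer
  have hEU := Cfsg.Agent.Lib.Helper1.le_normalizer_inf hER hENCa
  have hEU' := Cfsg.Agent.Lib.Helper1.le_normalizer_inf hER' hENCa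
  have hUO : R ⊓ centralizer ({a} : Set G) ≤ O := by
    rw [hO]
    exact hlocal _ hTp hT1 hEH _ (inf_le_right.trans hCaH) (hpq _ (hqR.to_le inf_le_left)) hEU
  have hUO' : R' ⊓ centralizer ({a} : Set G) ≤ O := by
    rw [hO]
    exact hlocal _ hTp hT1 hEH _ (inf_le_right.trans hCaH) (hpq _ (hqR'.to_le inf_le_left)) hEU'
  have hqD : IsPGroup q D := hqR.to_le hDR.le
  have hLp : ¬ p ∣ Nat.card ((O ⊓ normalizer (D : Set G)) ⊔ D : Subgroup G) := by
    intro hd
    have h3 := hd.trans (Cfsg.Agent.Lib.Helper9.card_sup_dvd_mul (O ⊓ normalizer (D : Set G)) D inf_le_right)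
    rcases (Nat.Prime.dvd_mul hpp.out).mp h3 with h4 | h4
    · exact hOp (h4.trans (Subgroup.card_dvd_of_le inf_le_left))
    · exact hpq D hqD h4
  have hEL : E ≤ normalizer (((O ⊓ normalizer (D : Set G)) ⊔ D : Subgroup G) : Set G) :=
    le_normalizer_sup (Cfsg.Agent.Lib.Helper1.le_normalizer_inf (hEH.trans hHO) (hED.trans le_normalizer)) hED
  refine ⟨(O ⊓ normalizer (D : Set G)) ⊔ D, (R ⊓ centralizer ({a} : Set G)) ⊔ D,
    (R' ⊓ centralizer ({a} : Set G)) ⊔ D, hEL, hcopE _ hLp, hKle _ hLp hEL, ?_, ?_,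
    sup_le inf_le_left hDR.le, sup_le inf_le_left hDR'.le, le_normalizer_sup hEU hED,
    le_normalizer_sup hEU' hED, ?_, ?_⟩
  · exact lt_of_le_of_ne le_sup_right (fun h => hU (h ▸ le_sup_left))
  · exact lt_of_le_of_ne le_sup_right (fun h => hU' (h ▸ le_sup_left))
  · exact sup_le_sup_right (le_inf hUO (inf_le_left.trans hRD)) D
  · exact sup_le_sup_right (le_inf hUO' (inf_le_left.trans hRD')) D

end Cfsg.Agent.Lib.Helper29
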